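import Cfsg.Agent.SporB.FiPair.Basic

/-! Outer automorphisms of the presented Fischer group on the points: fixed subgroups and a rigidity
criterion. -/

set_option autoImplicit false
set_option maxRecDepth 100000

namespace Cfsg.Agent.SporB.FiOutInv

open Cfsg.Agent.CosetCert Cfsg.Agent.SporB.FischerU Cfsg.Agent.SporB.FiPair

local notation "G22" => Cfsg.Spor.Fi22

/-- The symmetry of the diagram on points. -/
noncomputable def piA (x : ℕ) : ℕ := outPiT.get 16 (x % 3510)

theorem swap_tr (z : Fin 3510) : ∃ p : Fin 3510, (p : ℕ) = piA z ∧ swapAut (tr z) = tr p := by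
  obtain ⟨p, hp, e⟩ := swapHom_tr z
  refine ⟨p, ?_, ?_⟩
  · rw [piA, Nat.mod_eq_of_lt z.2]; exact hp
  · rw [swapAut, MonoidHom.toMulEquiv_apply]; exact e

theorem piA_lt (a : ℕ) : piA a < 3510 := by
  obtain ⟨p, hp, -⟩ := swap_tr (ptF a)
  have h : piA ((ptF a : Fin 3510) : ℕ) = piA a := by
    show piA (a % 3510) = piA a
    rw [piA, piA, Nat.mod_mod]
  rw [h] at hp
  exact hp ▸ p.2

theorem swap_ptF (a : ℕ) : swapAut (tr (ptF a)) = tr (ptF (piA a)) := by
  obtain ⟨p, hp, e⟩ := swap_tr (ptF a)
  rw [e]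
  refine congrArg tr (Fin.ext ?_)
  have h : piA ((ptF a : Fin 3510) : ℕ) = piA a := by
    show piA (a % 3510) = piA a
    rw [piA, piA, Nat.mod_mod]
  rw [hp, h]
  exact (Nat.mod_eq_of_lt (piA_lt a)).symm

theorem ptF_self (x : Fin 3510) : ptF x = x := Fin.ext (Nat.mod_eq_of_lt x.2)

theorem ptF_val' {a : ℕ} (h : a < 3510) : ((ptF a : Fin 3510) : ℕ) = a := Nat.mod_eq_of_lt h

theorem swap_el (l : List ℕ) : swapAut (el l) = el (l.map piA) := by
  induction l with
  | nil => simp [el]
  | cons a as ih => rw [el_cons, map_mul, swap_ptF, ih, List.map_cons, el_cons]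

/-- The outer automorphism with a correcting word. -/
noncomputable def outer (w : List ℕ) : MulAut G22 := swapAut * MulAut.conj (el w)

/-- Its action on points. -/
noncomputable def sg (w : List ℕ) (x : ℕ) : ℕ := piA (act w (x % 3510))

theorem outer_tr (w : List ℕ) (x : ℕ) : outer w (tr (ptF x)) = tr (ptF (sg w x)) := by
  rw [outer, MulAut.mul_apply, MulAut.conj_apply, conj_tr, ← ptF_self (pRep (el w) (ptF x)), swap_ptF]
  rw [pRep_el]
  rfl

theorem outer_not_inner (w : List ℕ) : outer w ∉ Cfsg.Inn G22 := fun h => swapAut_not_inner (by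
  have : swapAut = outer w * (MulAut.conj (el w))⁻¹ := by rw [outer, mul_inv_cancel_right]
  rw [this]
  exact Subgroup.mul_mem _ h (Subgroup.inv_mem _ ⟨_, rfl⟩))

/-- The fixed subgroup. -/
noncomputable def fixSub (w : List ℕ) : Subgroup G22 where
  carrier := {g | outer w g = g}
  one_mem' := map_one _
  mul_mem' := fun {a b} (ha : outer w a = a) (hb : outer w b = b) => by
    show outer w (a * b) = a * b
    rw [map_mul, ha, hb]
  inv_mem' := fun {a} (ha : outer w a = a) => by
    show outer w a⁻¹ = a⁻¹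
    rw [map_inv, ha]

theorem mem_fixSub {w : List ℕ} {g : G22} : g ∈ fixSub w ↔ outer w g = g := Iff.rfl

theorem tr_mem_fixSub {w : List ℕ} {y : ℕ} (hy : y < 3510) (h : sg w y = y) : tr (ptF y) ∈ fixSub w := by
  rw [mem_fixSub, outer_tr, h]

/-- A fixed element commutes with the action on points. -/
theorem fix_equiv {w : List ℕ} {g : G22} (hg : g ∈ fixSub w) (z : Fin 3510) :
    pRep g (ptF (sg w z)) = ptF (sg w (pRep g z)) := by
  have e : outer w (g * tr z * g⁻¹) = g * outer w (tr z) * g⁻¹ := by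
    rw [map_mul, map_mul, map_inv, mem_fixSub.1 hg]
  rw [conj_tr] at e
  conv_lhs at e => rw [← ptF_self (pRep g z), outer_tr]
  conv_rhs at e => rw [← ptF_self z, outer_tr, conj_tr]
  exact (tr_injective e).symm

/-- A fixed element permutes the fixed points. -/
theorem fix_maps {w : List ℕ} {g : G22} (hg : g ∈ fixSub w) {z : Fin 3510} (hz : sg w z = z) :
    sg w (pRep g z) = (pRep g z : ℕ) := by
  have h := congrArg Fin.val (fix_equiv hg z)
  rw [hz, ptF_self] at h
  have hlt : sg w (pRep g z) < 3510 := piA_lt _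
  rw [ptF_val' hlt] at h
  exact h.symm

theorem commute_iff_mv (y z : Fin 3510) : tr y * tr z = tr z * tr y ↔ mv y z = z := by
  constructor
  · intro h
    have h1 : tr y * tr z * (tr y)⁻¹ = tr z := by rw [h, mul_inv_cancel_right]
    rw [conj_tr] at h1
    rw [← FiPair.pRep_tr, tr_injective h1]
  · intro h
    rw [← mul_inv_eq_iff_eq_mul, conj_tr]
    exact congrArg tr (Fin.ext (by rw [FiPair.pRep_tr, h]))

theorem comm_tr_iff' (g : G22) (z : Fin 3510) : g * tr z = tr z * g ↔ pRep g z = z := by
  rw [← mul_inv_eq_iff_eq_mul, FischerU.conj_tr]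
  exact ⟨fun h => tr_injective h, fun h => by rw [h]⟩

/-- Conjugation preserves the action of transpositions on each other. -/
theorem mv_transport (g : G22) (y z : Fin 3510) :
    pRep g (ptF (mv y z)) = ptF (mv (pRep g y) (pRep g z)) := by
  have e1 : ptF (mv y z) = pRep (tr y) z := by rw [← FiPair.pRep_tr, ptF_self]
  have e2 : ptF (mv (pRep g y) (pRep g z)) = pRep (tr (pRep g y)) (pRep g z) := by
    rw [← FiPair.pRep_tr, ptF_self]
  rw [e1, e2, ← conj_tr g y, map_mul, map_mul, map_inv, Equiv.Perm.mul_apply, Equiv.Perm.mul_apply,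
    Equiv.Perm.inv_def, Equiv.symm_apply_apply]

theorem mv_eq_iff (g : G22) (y z : Fin 3510) : mv (pRep g y) (pRep g z) = pRep g z ↔ mv y z = z := by
  have hm : ∀ u v : Fin 3510, mv u v < 3510 := fun u v => by rw [← FiPair.pRep_tr]; exact Fin.isLt _
  constructor
  · intro h
    have h1 := mv_transport g y z
    rw [h, ptF_self] at h1
    have h2 := congrArg Fin.val ((pRep g).injective h1)
    rwa [ptF_val' (hm _ _)] at h2
  · intro h
    have h1 := mv_transport g y z
    rw [h, ptF_self] at h1
    have h2 := congrArg Fin.val h1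
    rw [ptF_val' (hm _ _)] at h2
    exact h2.symm

/-- Rigidity: an element fixing the points of a list, with only two candidates for the image of a further
point, is trivial. -/
noncomputable def rigidB (w S : List ℕ) (p q : ℕ) (F : List ℕ) (W : List (List ℕ × ℕ)) : Bool :=
  S.all (fun s => Nat.blt s 3510 && Nat.beq (sg w s) s) && F.all (fun y => S.contains y) &&
    Nat.blt p 3510 && Nat.blt q 3510 && Nat.beq (sg w p) q &&
    allB (fun x => Nat.ble 3510 x || Nat.beq x p || Nat.beq x q ||
      F.any (fun y => !(Nat.beq (mv y x) x == Nat.beq (mv y p) p))) 12 0 &&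
    Nat.beq W.length 9 &&
    (List.finRange 9).all fun i => ((W.getD i ([], 0)).1 ++ [(W.getD i ([], 0)).2]).all
        (fun v => Nat.beq v p || S.contains v) &&
      Nat.beq (act (W.getD i ([], 0)).1 (W.getD i ([], 0)).2) (genPt i)

set_option maxHeartbeats 1000000 in
theorem rigid {w S : List ℕ} {p q : ℕ} {F : List ℕ} {W : List (List ℕ × ℕ)}
    (h : rigidB w S p q F W = true) {g : G22} (hg : ∀ s ∈ S, pRep g (ptF s) = ptF s) : g = 1 := by
  simp only [rigidB, Bool.and_eq_true, List.all_eq_true] at h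
  obtain ⟨⟨⟨⟨⟨⟨⟨hS, hF⟩, hp⟩, hq⟩, hpq⟩, hcand⟩, -⟩, hW⟩ := h
  have hp' : p < 3510 := by simpa using hp
  have hgen : ∀ f₁ f₂ : G22 →* G22, (∀ v, v = p ∨ v ∈ S → f₁ (tr (ptF v)) = f₂ (tr (ptF v))) →
      f₁ = f₂ := by
    intro f₁ f₂ hf
    refine hom_ext_gens fun i => ?_
    obtain ⟨hw, he⟩ := hW i (List.mem_finRange _)
    have hl : ∀ v ∈ (W.getD i ([], 0)).1 ++ [(W.getD i ([], 0)).2], v = p ∨ v ∈ S := fun v hv => by
      have := hw v hv
      simpa using this
    have key : ∀ l : List ℕ, (∀ v ∈ l, v = p ∨ v ∈ S) → f₁ (el l) = f₂ (el l) := by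
      intro l
      induction l with
      | nil => simp [el]
      | cons a as ih =>
        intro hl'
        rw [el_cons, map_mul, map_mul, hf a (hl' a List.mem_cons_self),
          ih fun v hv => hl' v (List.mem_cons_of_mem _ hv)]
    have e : tr (genPt i) =
        el (W.getD i ([], 0)).1 * tr (ptF (W.getD i ([], 0)).2) * (el (W.getD i ([], 0)).1)⁻¹ := by
      have hx : (W.getD i ([], 0)).2 < 3510 := by
        rcases hl _ (List.mem_append_right _ List.mem_cons_self) with e | e
        · rw [e]; exact hp'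
        · have := hS _ e
          simp only [Nat.blt_eq] at this
          exact this.1
      rw [conj_tr]
      refine congrArg tr (Fin.ext ?_)
      rw [pRep_el, ptF_val' hx]
      exact (Nat.eq_of_beq_eq_true he).symm
    rw [e, map_mul, map_mul, map_mul, map_mul, map_inv, map_inv,
      key _ fun v hv => hl v (List.mem_append_left _ hv),
      hf _ (hl _ (List.mem_append_right _ List.mem_cons_self))]
  have himg : pRep g (ptF p) = ptF p ∨ pRep g (ptF p) = ptF q := by
    have h1 := allB_spec_zero hcand (by norm_num : 3510 ≤ 2 ^ 12) (pRep g (ptF p)).2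
    simp only [Bool.or_eq_true] at h1
    rcases h1 with ((h1 | h1) | h1) | h1
    · exact absurd (Nat.le_of_ble_eq_true h1) (not_le.2 (Fin.isLt _))
    · exact Or.inl (Fin.ext (by rw [Nat.eq_of_beq_eq_true h1, ptF_val' hp']))
    · refine Or.inr (Fin.ext ?_)
      rw [Nat.eq_of_beq_eq_true h1, ptF_val' (by simpa using hq)]
    · exfalso
      obtain ⟨y, hy, hne⟩ := List.any_eq_true.1 h1
      have hyS : y ∈ S := by simpa using hF y hy
      have hy' := hS y hyS
      simp only [Nat.blt_eq] at hy'
      have hgy := hg y hyS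
      have hiff := mv_eq_iff g (ptF y) (ptF p)
      rw [hgy, ptF_val' hy'.1, ptF_val' hp'] at hiff
      have hb : Nat.beq (mv y (pRep g (ptF p) : ℕ)) (pRep g (ptF p) : ℕ) = Nat.beq (mv y p) p :=
        Bool.eq_iff_iff.2 ⟨fun h => Nat.beq_eq.mpr (hiff.1 (Nat.eq_of_beq_eq_true h)),
          fun h => Nat.beq_eq.mpr (hiff.2 (Nat.eq_of_beq_eq_true h))⟩
      rw [hb, beq_self_eq_true, Bool.not_true] at hne
      exact Bool.false_ne_true hne
  have hconj : ∀ v, v ∈ S → (MulAut.conj g).toMonoidHom (tr (ptF v)) = tr (ptF v) := fun v hv => by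
    show g * tr (ptF v) * g⁻¹ = _
    rw [conj_tr, hg v hv]
  rcases himg with e | e
  · have hid : (MulAut.conj g).toMonoidHom = MonoidHom.id G22 := by
      refine hgen _ _ fun v hv => ?_
      rcases hv with rfl | hv
      · show g * tr (ptF v) * g⁻¹ = _
        rw [conj_tr, e]; rfl
      · exact hconj v hv
    refine eq_one_of_gens fun i => ?_
    have h1 := DFunLike.congr_fun hid (tr (genPt i))
    change g * tr (genPt i) * g⁻¹ = tr (genPt i) at h1
    rw [conj_tr] at h1
    exact tr_injective h1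
  · exfalso
    have hsw : (MulAut.conj g).toMonoidHom = (outer w).toMonoidHom := by
      refine hgen _ _ fun v hv => ?_
      rcases hv with rfl | hv
      · show g * tr (ptF v) * g⁻¹ = outer w (tr (ptF v))
        rw [conj_tr, e, outer_tr, Nat.eq_of_beq_eq_true hpq]
      · have hv' := hS v hv
        rw [Nat.beq_eq] at hv'
        show (MulAut.conj g).toMonoidHom (tr (ptF v)) = outer w (tr (ptF v))
        rw [hconj v hv, outer_tr, hv'.2]
    exact outer_not_inner w ⟨g, MulEquiv.ext fun x => DFunLike.congr_fun hsw x⟩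

end Cfsg.Agent.SporB.FiOutInv
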