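import Cfsg.Agent.Forms.Symplectic
import Cfsg.Agent.Linear.Symplectic
import Cfsg.Agent.OrthGen.MatrixForm
import Cfsg.Agent.Classical.OrthCount
import Cfsg.Prelude.Def_Classical

/-! The stabiliser of a non-singular vector in the orthogonal group in dimension eight. -/

set_option autoImplicit false
set_option maxRecDepth 100000

namespace Cfsg.Agent.SporB.FiOutInv

open Cfsg.Agent.Classical QuadraticMap Matrix

/-- Vectors. -/
abbrev V8 : Type := Fin 4 ⊕ Fin 4 → ZMod 2

/-- Symplectic vectors. -/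
abbrev W6 : Type := Fin 3 ⊕ Fin 3 → ZMod 2

/-- The fixed non-singular vector. -/
def uvec : V8 := Sum.elim (Fin.cons 1 fun _ => 0) (Fin.cons 1 fun _ => 0)

/-- Dropping the first pair. -/
def dropP (v : V8) : W6 := Sum.elim (fun i => v (.inl i.succ)) fun i => v (.inr i.succ)

/-- Extension by zero. -/
def liftP (v : W6) : V8 := Sum.elim (Fin.cons 0 fun i => v (.inl i)) (Fin.cons 0 fun i => v (.inr i))

/-- The isometry group. -/
noncomputable abbrev O8 : Subgroup (GL (Fin 4 ⊕ Fin 4) (ZMod 2)) :=
  Cfsg.isometryGroup (ZMod 2) ⇑(plusQF 4 (ZMod 2))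

/-- The matrix action. -/
noncomputable def av (M : ↥O8) (v : V8) : V8 := ((M : GL (Fin 4 ⊕ Fin 4) (ZMod 2)) : Matrix _ _ (ZMod 2)) *ᵥ v

theorem av_q (M : ↥O8) (v : V8) : plusQF 4 (ZMod 2) (av M v) = plusQF 4 (ZMod 2) v := M.2 v v

theorem av_add (M : ↥O8) (v w : V8) : av M (v + w) = av M v + av M w := Matrix.mulVec_add _ _ _

theorem av_mul (M N : ↥O8) (v : V8) : av (M * N) v = av M (av N v) := by
  simp [av, Matrix.mulVec_mulVec]

theorem av_polar (M : ↥O8) (v w : V8) :
    polar (plusQF 4 (ZMod 2)) (av M v) (av M w) = polar (plusQF 4 (ZMod 2)) v w := by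
  simp only [polar]
  rw [← av_add, av_q, av_q, av_q]

theorem polar_eq (v w : V8) : polar (plusQF 4 (ZMod 2)) v w =
    ∑ i : Fin 4, (v (.inl i) * w (.inr i) + v (.inr i) * w (.inl i)) := by
  simp only [polar, plusQF_apply, Cfsg.quadFormPlus, Pi.add_apply, ← Finset.sum_sub_distrib]
  exact Finset.sum_congr rfl fun i _ => by ring

theorem polar_uvec (v : V8) : polar (plusQF 4 (ZMod 2)) v uvec = v (.inl 0) + v (.inr 0) := by
  rw [polar_eq]
  simp [uvec, Fin.sum_univ_succ]

theorem uvec_q : plusQF 4 (ZMod 2) uvec = 1 := by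
  rw [plusQF_apply]; decide +kernel

theorem perp_split : ∀ v : V8, v (.inl 0) + v (.inr 0) = 0 →
    v = liftP (dropP v) ∨ v = liftP (dropP v) + uvec := by decide +kernel

theorem dropP_add (v w : V8) : dropP (v + w) = dropP v + dropP w := by
  funext s; rcases s with i | i <;> rfl

theorem dropP_liftP (v : W6) : dropP (liftP v) = v := by
  funext s; rcases s with i | i <;> simp [dropP, liftP]

theorem liftP_add (v w : W6) : liftP (v + w) = liftP v + liftP w := by
  funext s; rcases s with i | i <;> refine Fin.cases ?_ (fun j => ?_) i <;> simp [liftP]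

theorem liftP_perp (v : W6) : liftP v (.inl 0) + liftP v (.inr 0) = 0 := by simp [liftP]

theorem dropP_uvec : dropP uvec = 0 := by decide +kernel

theorem sympForm_drop {a b : V8} (ha : a (.inl 0) + a (.inr 0) = 0) (hb : b (.inl 0) + b (.inr 0) = 0) :
    Cfsg.sympForm 3 (ZMod 2) (dropP a) (dropP b) = polar (plusQF 4 (ZMod 2)) a b := by
  rw [Forms.sympForm_apply, polar_eq, Fin.sum_univ_succ (n := 3)]
  have h0 : a (.inl 0) * b (.inr 0) + a (.inr 0) * b (.inl 0) = 0 := by
    have h : ∀ p q r s : ZMod 2, p + q = 0 → r + s = 0 → p * s + q * r = 0 := by decide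
    exact h _ _ _ _ ha hb
  rw [h0, zero_add]
  refine Finset.sum_congr rfl fun i _ => ?_
  simp only [dropP, Sum.elim_inl, Sum.elim_inr]
  have h : ∀ x y : ZMod 2, x - y = y + x := by decide
  exact h _ _

/-- The stabiliser. -/
noncomputable def Stab : Subgroup ↥O8 where
  carrier := {M | av M uvec = uvec}
  one_mem' := by simp [av]
  mul_mem' := fun {a b} (ha : av a uvec = uvec) (hb : av b uvec = uvec) => by
    show av (a * b) uvec = uvec
    rw [av_mul, hb, ha]
  inv_mem' := fun {a} (ha : av a uvec = uvec) => by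
    show av a⁻¹ uvec = uvec
    conv_lhs => rw [← ha, ← av_mul, inv_mul_cancel]
    simp [av]

theorem stab_perp {M : ↥O8} (hM : M ∈ Stab) {v : V8} (hv : v (.inl 0) + v (.inr 0) = 0) :
    av M v (.inl 0) + av M v (.inr 0) = 0 := by
  rw [← polar_uvec, ← show av M uvec = uvec from hM, av_polar, polar_uvec]
  exact hv

/-- The induced linear map. -/
noncomputable def indL (M : ↥O8) : W6 →ₗ[ZMod 2] W6 :=
  AddMonoidHom.toZModLinearMap 2
    (AddMonoidHom.mk' (fun v => dropP (av M (liftP v))) fun v w => by rw [liftP_add, av_add, dropP_add])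

theorem indL_apply (M : ↥O8) (v : W6) : indL M v = dropP (av M (liftP v)) := rfl

theorem indL_drop {M : ↥O8} (hM : M ∈ Stab) {v : V8} (hv : v (.inl 0) + v (.inr 0) = 0) :
    indL M (dropP v) = dropP (av M v) := by
  rw [indL_apply]
  rcases perp_split v hv with h | h
  · rw [← h]
  · conv_rhs => rw [h, av_add, show av M uvec = uvec from hM, dropP_add, dropP_uvec, add_zero]

/-- The symplectic map of an element of the stabiliser. -/
noncomputable def indSp : ↥Stab →* Matrix.symplecticGroup (Fin 3) (ZMod 2) where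
  toFun M := ⟨LinearMap.toMatrix' (indL M.1), by
    rw [Forms.mem_symplecticGroup_iff_sympForm]
    intro a b
    simp only [LinearMap.toMatrix'_mulVec, indL_apply]
    rw [sympForm_drop (stab_perp M.2 (liftP_perp a)) (stab_perp M.2 (liftP_perp b)), av_polar,
      ← sympForm_drop (liftP_perp a) (liftP_perp b), dropP_liftP, dropP_liftP]⟩
  map_one' := Linear.Symp.sp_ext fun v => by
    show LinearMap.toMatrix' (indL (1 : ↥O8)) *ᵥ v = (1 : Matrix _ _ (ZMod 2)) *ᵥ v
    rw [LinearMap.toMatrix'_mulVec, indL_apply, Matrix.one_mulVec]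
    simp [av, dropP_liftP]
  map_mul' M N := Linear.Symp.sp_ext fun v => by
    show LinearMap.toMatrix' (indL (M.1 * N.1)) *ᵥ v =
      (LinearMap.toMatrix' (indL M.1) * LinearMap.toMatrix' (indL N.1)) *ᵥ v
    rw [← Matrix.mulVec_mulVec, LinearMap.toMatrix'_mulVec, LinearMap.toMatrix'_mulVec,
      LinearMap.toMatrix'_mulVec, indL_apply _ v, av_mul, indL_apply N.1 v,
      indL_drop M.2 (stab_perp N.2 (liftP_perp v))]

theorem indSp_app (M : ↥Stab) (v : W6) : Linear.Symp.app (indSp M) v = indL M.1 v :=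
  LinearMap.toMatrix'_mulVec _ _

/-- The reflection in the fixed vector. -/
noncomputable def uRefl : ↥O8 := Refl.reflectionIso (plusQF 4 (ZMod 2)) uvec (by rw [uvec_q]; exact one_ne_zero)

theorem av_refl {x : V8} (hx : plusQF 4 (ZMod 2) x ≠ 0) (v : V8) :
    av (Refl.reflectionIso (plusQF 4 (ZMod 2)) x hx) v = v + polar (plusQF 4 (ZMod 2)) x v • x := by
  rw [av, ← OrthGen.matEquiv_apply (plusQF 4 (ZMod 2)) (Refl.reflectionIso (plusQF 4 (ZMod 2)) x hx) v,
    OrthGen.matEquiv_reflectionIso, reflQ_apply]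
  have h1 : ∀ a : ZMod 2, a ≠ 0 → a = 1 := by decide
  rw [h1 _ hx, inv_one, one_mul, ZModModule.sub_eq_add]

theorem refl_mem {x : V8} (hx : plusQF 4 (ZMod 2) x ≠ 0) (h : x (.inl 0) + x (.inr 0) = 0) :
    Refl.reflectionIso (plusQF 4 (ZMod 2)) x hx ∈ Stab := by
  show av _ uvec = uvec
  rw [av_refl, polar_uvec, h, zero_smul, add_zero]

theorem uvec_perp : uvec (.inl 0) + uvec (.inr 0) = 0 := by decide +kernel

theorem uRefl_mem : uRefl ∈ Stab := refl_mem _ uvec_perp

theorem av_uRefl (v : V8) : av uRefl v = v + (v (.inl 0) + v (.inr 0)) • uvec := by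
  have h := av_refl (x := uvec) (by rw [uvec_q]; exact one_ne_zero) v
  rw [polar_comm, polar_uvec] at h
  exact h

theorem indSp_uRefl : indSp ⟨uRefl, uRefl_mem⟩ = 1 := Linear.Symp.sp_ext fun v => by
  rw [indSp_app, Linear.Symp.app_one, indL_apply]
  show dropP (av uRefl (liftP v)) = v
  rw [av_uRefl, liftP_perp, zero_smul, add_zero, dropP_liftP]

theorem indSp_surjective : Function.Surjective indSp := by
  rw [← MonoidHom.range_eq_top]
  refine Linear.Symp.closure_tau_le ?_
  intro v c
  have hc : ∀ c : ZMod 2, c = 0 ∨ c = 1 := by decide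
  rcases hc c with rfl | rfl
  · rw [Linear.Symp.tau_zero]; exact one_mem _
  let x : V8 := liftP v + (1 + plusQF 4 (ZMod 2) (liftP v)) • uvec
  have hq : plusQF 4 (ZMod 2) x ≠ 0 := by
    have hp : polar (plusQF 4 (ZMod 2)) (liftP v) uvec = 0 := by rw [polar_uvec, liftP_perp]
    have e : plusQF 4 (ZMod 2) x = 1 := by
      rw [show x = liftP v + (1 + plusQF 4 (ZMod 2) (liftP v)) • uvec from rfl,
        QuadraticMap.map_add ⇑(plusQF 4 (ZMod 2)), QuadraticMap.map_smul, polar_smul_right, uvec_q, hp, smul_zero,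
        add_zero, smul_eq_mul, mul_one]
      have h : ∀ a : ZMod 2, a + (1 + a) * (1 + a) = 1 := by decide
      exact h _
    rw [e]; exact one_ne_zero
  have hperp : x (.inl 0) + x (.inr 0) = 0 := by
    rw [← polar_uvec]
    simp only [x, polar_add_left, polar_smul_left, polar_uvec, liftP_perp, uvec_perp, smul_zero, add_zero]
  refine ⟨⟨_, refl_mem hq hperp⟩, Linear.Symp.sp_ext fun w => ?_⟩
  have hdx : dropP x = v := by
    have hs : ∀ a : ZMod 2, dropP (a • uvec) = 0 := fun a => by
      rcases hc a with rfl | rfl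
      · rw [zero_smul]; funext s; rcases s with i | i <;> rfl
      · rw [one_smul]; exact dropP_uvec
    simp only [x, dropP_add, dropP_liftP, hs, add_zero]
  have hdw : ∀ (a : ZMod 2) (y : V8), dropP (a • y) = a • dropP y := fun a y => by
    funext s; rcases s with i | i <;> rfl
  rw [indSp_app, indL_apply, Linear.Symp.app_tau, av_refl, dropP_add, hdw, hdx, dropP_liftP,
    ← sympForm_drop hperp (liftP_perp w), hdx, dropP_liftP, Forms.sympBil_apply, one_mul]
  congr 2
  have hsw : ∀ a b : W6, Cfsg.sympForm 3 (ZMod 2) a b = Cfsg.sympForm 3 (ZMod 2) b a := fun a b => by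
    rw [← Forms.sympBil_apply, ← Forms.sympBil_apply, Linear.Symp.bil_swap, ZModModule.neg_eq_self]
  exact hsw _ _

theorem indSp_kernel {M : ↥Stab} (h : indSp M = 1) : M.1 = 1 ∨ M.1 = uRefl := by
  have hperp : ∀ v : V8, v (.inl 0) + v (.inr 0) = 0 → av M.1 v = v := by
    intro v hv
    have hd : dropP (av M.1 v) = dropP v := by
      rw [← indL_drop M.2 hv, ← indSp_app, h, Linear.Symp.app_one]
    have h1 := perp_split _ (stab_perp M.2 hv)
    have h2 := perp_split v hv
    rw [hd] at h1
    have hq := av_q M.1 v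
    have hne : ∀ w : W6, plusQF 4 (ZMod 2) (liftP w) ≠ plusQF 4 (ZMod 2) (liftP w + uvec) := fun w => by
      have hp : polar (plusQF 4 (ZMod 2)) (liftP w) uvec = 0 := by rw [polar_uvec, liftP_perp]
      rw [QuadraticMap.map_add ⇑(plusQF 4 (ZMod 2)), hp, uvec_q, add_zero]
      have : ∀ a : ZMod 2, a ≠ a + 1 := by decide
      exact this _
    rcases h1 with e | e <;> rcases h2 with e' | e'
    · exact e.trans e'.symm
    · exfalso; rw [e] at hq; conv_rhs at hq => rw [e']
      exact hne _ hq
    · exfalso; rw [e] at hq; conv_rhs at hq => rw [e']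
      exact hne _ hq.symm
    · exact e.trans e'.symm
  set e0 : V8 := Pi.single (.inl 0) 1 with he0
  set y := av M.1 e0 with hy
  have hcases : y = e0 ∨ y = Pi.single (.inr 0) 1 := by
    have hall : ∀ z : V8, Cfsg.quadFormPlus 4 (ZMod 2) z = 0 →
        (z (.inl 0) + z (.inr 0) = 1) →
        (∀ s : Fin 3 ⊕ Fin 3, dropP z s = 0) → z = Pi.single (.inl 0) 1 ∨ z = Pi.single (.inr 0) 1 := by
      decide +kernel
    refine hall y ?_ ?_ fun s => ?_
    · rw [← plusQF_apply, hy, av_q, plusQF_apply, he0]; decide +kernel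
    · rw [← polar_uvec, hy, ← show av M.1 uvec = uvec from M.2, av_polar, polar_uvec, he0]; decide +kernel
    · have hp : ∀ w : W6, polar (plusQF 4 (ZMod 2)) y (liftP w) = 0 := fun w => by
        rw [hy, ← hperp _ (liftP_perp w), av_polar, polar_eq, he0]
        simp [liftP, Fin.sum_univ_succ, Pi.single_apply]
      rcases s with i | i
      · have := hp (Pi.single (.inr i) 1)
        rw [polar_eq] at this
        simpa [liftP, dropP, Fin.sum_univ_succ, Pi.single_apply, Finset.sum_ite_eq'] using this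
      · have := hp (Pi.single (.inl i) 1)
        rw [polar_eq] at this
        simpa [liftP, dropP, Fin.sum_univ_succ, Pi.single_apply, Finset.sum_ite_eq'] using this
  have hsplit : ∀ v : V8, v (.inl 0) + v (.inr 0) = 0 ∨ (v + Pi.single (.inl 0) 1 : V8) (.inl 0) +
      (v + Pi.single (.inl 0) 1 : V8) (.inr 0) = 0 := by decide +kernel
  have hext : ∀ N : ↥O8, (∀ v : V8, v (.inl 0) + v (.inr 0) = 0 → av N v = v) → av N e0 = y → N = M.1 := by
    intro N hN hN0
    refine Subtype.ext (Units.ext (Matrix.ext_of_mulVec_single fun s => ?_))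
    show av N (Pi.single s 1) = av M.1 (Pi.single s 1)
    rcases hsplit (Pi.single s 1) with h | h
    · rw [hN _ h, hperp _ h]
    · have h1 := hN _ h
      have h2 := hperp _ h
      rw [av_add, ← he0, hN0] at h1
      rw [av_add, ← he0, ← hy] at h2
      exact add_right_cancel (h1.trans h2.symm)
  rcases hcases with e | e
  · left; exact (hext 1 (fun v _ => by simp [av]) (by rw [e]; simp [av])).symm
  · right
    refine (hext uRefl (fun v hv => ?_) ?_).symm
    · rw [av_uRefl, hv, zero_smul, add_zero]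
    · rw [e, av_uRefl, he0]; decide +kernel

end Cfsg.Agent.SporB.FiOutInv
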