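import Cfsg.Agent.SporB.FiOutInv.CsAut
import Cfsg.Agent.SporB.FiOutInv.SpStab

/-! The fixed subgroup of the second kind of outer involution. -/

set_option autoImplicit false
set_option maxRecDepth 100000

namespace Cfsg.Agent.SporB.FiOutInv

open Cfsg.Agent.CosetCert Cfsg.Agent.SporB.FischerU Cfsg.Agent.SporB.FiPair
open Cfsg.Agent.Classical

local notation "G22" => Cfsg.Spor.Fi22

/-- The first chosen transposition. -/
noncomputable abbrev tA : G22 := tr (ptF 16)

theorem scanA : allB (fun x => Nat.ble 3510 x || !Nat.beq (sg [16] x) x ||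
    (Nat.beq (mv 16 x) x && (Nat.beq x 16 || aWit.any fun y => !Nat.beq (mv x y) y))) 12 0 = true := by
  decide +kernel

theorem aWit_fixed : (aWit.all fun y => Nat.blt y 3510 && Nat.beq (sg [16] y) y) = true := by decide +kernel

theorem a_facts : piA 16 = 16 ∧ sg [16] 16 = 16 ∧ 16 ∈ comp 0 := by decide +kernel

theorem scanA_mem {x : Fin 3510} (h : sg [16] x = x) :
    mv 16 x = x ∧ ((x : ℕ) = 16 ∨ ∃ y ∈ aWit, mv x y ≠ y) := by
  have h1 := allB_spec_zero scanA (by norm_num : 3510 ≤ 2 ^ 12) x.2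
  simp only [Bool.or_eq_true, Bool.and_eq_true, Bool.not_eq_true', List.any_eq_true] at h1
  rcases h1 with (h1 | h1) | ⟨h1, h2⟩
  · exact absurd (Nat.le_of_ble_eq_true h1) (not_le.2 x.2)
  · rw [h, Nat.beq_refl] at h1; exact absurd h1 (by simp)
  · refine ⟨Nat.eq_of_beq_eq_true h1, ?_⟩
    rcases h2 with h2 | ⟨y, hy, h2⟩
    · exact Or.inl (Nat.eq_of_beq_eq_true h2)
    · refine Or.inr ⟨y, hy, fun e => ?_⟩
      rw [e, Nat.beq_refl] at h2
      exact absurd h2 (by simp)

theorem fixA_a {g : G22} (hg : g ∈ fixSub [16]) : pRep g (ptF 16) = ptF 16 := by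
  have h16 : ((ptF 16 : Fin 3510) : ℕ) = 16 := ptF_val' (by norm_num)
  set u := pRep g (ptF 16) with hu
  have hfu : sg [16] u = u := fix_maps hg (by rw [h16]; exact a_facts.2.1)
  rcases (scanA_mem hfu).2 with h | ⟨y, hy, h⟩
  · exact Fin.ext (h.trans h16.symm)
  · exfalso
    have hyl : y < 3510 ∧ sg [16] y = y := by
      have := List.all_eq_true.1 aWit_fixed y hy
      simpa using this
    have hy' : sg [16] (pRep g⁻¹ (ptF y)) = (pRep g⁻¹ (ptF y) : ℕ) :=
      fix_maps (inv_mem hg) (by rw [ptF_val' hyl.1]; exact hyl.2)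
    have h2 := (scanA_mem hy').1
    have h3 := (mv_eq_iff g (ptF 16) (pRep g⁻¹ (ptF y))).2 (by rwa [h16])
    rw [map_inv, Equiv.Perm.inv_def, Equiv.apply_symm_apply, ptF_val' hyl.1] at h3
    exact h h3

theorem fixA_iff (g : G22) :
    outer [16] g = g ↔ g ∈ CS ⊓ Subgroup.centralizer ({tA} : Set G22) := by
  have key : g * tA = tA * g → outer [16] g = outer [] g := fun h => by
    rw [outer, outer, MulAut.mul_apply, MulAut.mul_apply, MulAut.conj_apply, MulAut.conj_apply, el_singleton,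
      el_nil, one_mul, inv_one, mul_one, ← h, mul_inv_cancel_right]
  rw [Subgroup.mem_inf, Subgroup.mem_centralizer_singleton_iff]
  constructor
  · intro h
    have h1 : g * tA = tA * g := (comm_tr_iff' g _).2 (fixA_a h)
    exact ⟨(key h1).symm.trans h, h1⟩
  · rintro ⟨h1, h2⟩
    exact (key h2).trans h1

/-- The fixed subgroup of the second kind. -/
noncomputable abbrev HA : Subgroup G22 := CS ⊓ Subgroup.centralizer ({tA} : Set G22)

theorem HA_fix {g : G22} (hg : g ∈ HA) : pRep g (ptF 16) = ptF 16 :=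
  (comm_tr_iff' g _).1 (Subgroup.mem_centralizer_singleton_iff.1 hg.2)

theorem HA_TT {g : G22} (hg : g ∈ HA) : g ∈ TT 0 := by
  refine stab_mem_TT (g := ⟨g, hg.1⟩) (cmap_eq _ (ptF 16) ?_ ?_)
  · rw [ptF_val' (by norm_num : 16 < 3510)]; exact a_facts.2.2
  · show ((pRep g (ptF 16) : Fin 3510) : ℕ) ∈ comp 0
    rw [HA_fix hg, ptF_val' (by norm_num : 16 < 3510)]; exact a_facts.2.2

theorem lab_a : geo1.dec (geo1.lab 16) = uvec := by
  rw [geo1_dec]
  show dec8 (lookN oneLab 16) = uvec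
  decide +kernel

theorem isoT1_fix {g : ↥(TT 0)} (hg : pRep (g : G22) (ptF 16) = ptF 16) : av (isoT1 g) uvec = uvec := by
  have h := (isoT1_rel g (ptF 16) (by rw [ptF_val' (by norm_num : 16 < 3510)]; exact a_facts.2.2)).2
  rw [hg, ptF_val' (by norm_num : 16 < 3510), lab_a] at h
  exact h

/-- The hom to the stabiliser. -/
noncomputable def toStab : ↥HA →* ↥Stab where
  toFun g := ⟨isoT1 ⟨g, HA_TT g.2⟩, isoT1_fix (g := ⟨g, HA_TT g.2⟩) (HA_fix g.2)⟩
  map_one' := Subtype.ext (map_one isoT1)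
  map_mul' a b := Subtype.ext (map_mul isoT1 ⟨a, HA_TT a.2⟩ ⟨b, HA_TT b.2⟩)

/-- A sign as an element of the group of order two. -/
def signToZ : ℤˣ →* Multiplicative (ZMod 2) where
  toFun u := if u = 1 then 1 else Multiplicative.ofAdd 1
  map_one' := if_pos rfl
  map_mul' := by decide +kernel

/-- The parity of an element. -/
noncomputable def parA : ↥HA →* Multiplicative (ZMod 2) :=
  signToZ.comp ((Equiv.Perm.sign.comp cperm).comp (Subgroup.inclusion inf_le_left))

theorem tA_mem : tA ∈ HA :=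
  ⟨tr_mem_CS a_facts.2.2, Subgroup.mem_centralizer_singleton_iff.2 rfl⟩

theorem parA_tA : parA ⟨tA, tA_mem⟩ = Multiplicative.ofAdd 1 := by
  show signToZ (Equiv.Perm.sign (cperm ⟨tA, tr_mem_CS a_facts.2.2⟩)) = _
  rw [cperm_tr a_facts.2.2, Equiv.Perm.sign_swap (by decide)]
  rfl

theorem toStab_tA : (toStab ⟨tA, tA_mem⟩).1 = uRefl := by
  have h : geo1.Rel tA (isoT1 ⟨tA, HA_TT tA_mem⟩) := isoT1_rel ⟨tA, HA_TT tA_mem⟩
  have h' := (Geo.tr_spec geo1_ok gen1_check (z := 16) a_facts.2.2).2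
  have e := Geo.Rel.unique geo1_ok h h'
  refine e.trans ?_
  unfold uRefl Geo.rfl'
  congr 1
  exact lab_a

theorem CA_iso : Nonempty (↥HA ≃* Multiplicative (ZMod 2) × Cfsg.PSp 3 (ZMod 2)) := by
  let f : ↥HA →* Multiplicative (ZMod 2) × Matrix.symplecticGroup (Fin 3) (ZMod 2) :=
    parA.prod (indSp.comp toStab)
  have hz : Subgroup.center (Matrix.symplecticGroup (Fin 3) (ZMod 2)) = ⊥ :=
    Subgroup.card_eq_one.mp (by rw [Linear.Symp.card_center, ZMod.card]; rfl)
  have hinj : Function.Injective f := by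
    rw [injective_iff_map_eq_one]
    intro g hg
    simp only [f, MonoidHom.prod_apply, Prod.mk_eq_one, MonoidHom.comp_apply] at hg
    rcases indSp_kernel hg.2 with e | e
    · have : (⟨g, HA_TT g.2⟩ : ↥(TT 0)) = 1 := isoT1.injective (e.trans (map_one isoT1).symm)
      exact Subtype.ext (congrArg (fun x : ↥(TT 0) => (x : G22)) this)
    · exfalso
      have : (⟨g, HA_TT g.2⟩ : ↥(TT 0)) = ⟨tA, HA_TT tA_mem⟩ := isoT1.injective (e.trans toStab_tA.symm)
      have hgt : g = ⟨tA, tA_mem⟩ := Subtype.ext (congrArg (fun x : ↥(TT 0) => (x : G22)) this)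
      rw [hgt, parA_tA] at hg
      exact absurd hg.1 (by decide)
  have hsurj : Function.Surjective f := by
    rintro ⟨s, q⟩
    obtain ⟨M, hM⟩ := indSp_surjective q
    let g0 : ↥(TT 0) := isoT1.symm M.1
    have hg0 : pRep (g0 : G22) (ptF 16) = ptF 16 := by
      have h := (isoT1_rel g0 (ptF 16) (by rw [ptF_val' (by norm_num : 16 < 3510)]; exact a_facts.2.2))
      rw [show isoT1 g0 = M.1 from isoT1.apply_symm_apply M.1, ptF_val' (by norm_num : 16 < 3510), lab_a] at h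
      have e : geo1.dec (geo1.lab 16) = geo1.dec (geo1.lab ((pRep (g0 : G22) (ptF 16) : Fin 3510) : ℕ)) := by
        rw [← h.2, lab_a]; exact M.2.symm
      exact Fin.ext ((lab1_dec_inj a_facts.2.2 h.1 e).symm.trans (ptF_val' (by norm_num : 16 < 3510)).symm)
    have hmem : (g0 : G22) ∈ HA :=
      ⟨TT_le_CS 0 g0.2, Subgroup.mem_centralizer_singleton_iff.2 ((comm_tr_iff' _ _).2 hg0)⟩
    have hg : toStab ⟨g0, hmem⟩ = M := Subtype.ext (isoT1.apply_symm_apply M.1)
    have htA : indSp (toStab ⟨tA, tA_mem⟩) = 1 := by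
      rw [show toStab ⟨tA, tA_mem⟩ = ⟨uRefl, uRefl_mem⟩ from Subtype.ext toStab_tA, indSp_uRefl]
    have h2 : ∀ p : Multiplicative (ZMod 2), p = s ∨ p * Multiplicative.ofAdd 1 = s := by
      revert s; decide
    rcases h2 (parA ⟨g0, hmem⟩) with e | e
    · exact ⟨⟨g0, hmem⟩, Prod.ext e (by show indSp (toStab ⟨g0, hmem⟩) = q; rw [hg, hM])⟩
    · refine ⟨⟨g0, hmem⟩ * ⟨tA, tA_mem⟩, Prod.ext ?_ ?_⟩
      · show parA (⟨g0, hmem⟩ * ⟨tA, tA_mem⟩) = s
        rw [map_mul, parA_tA, e]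
      · show indSp (toStab (⟨g0, hmem⟩ * ⟨tA, tA_mem⟩)) = q
        rw [map_mul toStab, map_mul indSp, htA, mul_one, hg, hM]
  exact ⟨(MulEquiv.ofBijective f ⟨hinj, hsurj⟩).trans ((MulEquiv.refl _).prodCongr
    ((QuotientGroup.quotientMulEquivOfEq hz).trans QuotientGroup.quotientBot).symm)⟩

end Cfsg.Agent.SporB.FiOutInv
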