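import Cfsg.Agent.SporB.FiOutInv.Pair
import Cfsg.Agent.SporB.FiPair.GOFacts
import Cfsg.Prelude.Def_Solvable
import Cfsg.Prelude.Def_Transfer

/-! The fixed subgroup of the third kind of outer involution. -/

set_option autoImplicit false
set_option maxRecDepth 100000

namespace Cfsg.Agent.SporB.FiOutInv

open Cfsg.Agent.CosetCert Cfsg.Agent.SporB.FischerU Cfsg.Agent.SporB.FiPair
open Cfsg.Agent.Classical

local notation "G22" => Cfsg.Spor.Fi22

/-- The fixed subgroup of the third kind. -/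
noncomputable abbrev CX : Subgroup G22 := fixSub [16, 17]

theorem geo3_hdec : ∀ v, ∃ n < 2 ^ geo3.dim, geo3.dec n = v := fun v => by
  obtain ⟨n, hn⟩ := dec6_surj v
  exact ⟨n, n.2, hn⟩

theorem pts3_lt {z : ℕ} (h : z ∈ pairPts) : z < 3510 ∧ sg [16, 17] z = z :=
  ⟨(geo3_ok.pts z h).1, Nat.eq_of_beq_eq_true (List.all_eq_true.1 pts3_fixed z h)⟩

theorem CX_maps {g : G22} (hg : g ∈ CX) (z : Fin 3510) (hz : (z : ℕ) ∈ geo3.pts) :
    ((pRep g z : Fin 3510) : ℕ) ∈ geo3.pts := by
  have h := fix_maps hg (z := z) (pts3_lt hz).2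
  have h1 := allB_spec_zero scan3 (by norm_num : 3510 ≤ 2 ^ 12) (pRep g z).2
  simp only [Bool.or_eq_true] at h1
  rcases h1 with (h1 | h1) | h1
  · exact absurd (Nat.le_of_ble_eq_true h1) (not_le.2 (Fin.isLt _))
  · rw [h, Nat.beq_refl] at h1; exact absurd h1 (by simp)
  · show _ ∈ pairPts
    simpa using h1

theorem geo3_reach : geo3.Reach [pairGen.getD 0 0] := fun z hz => by
  have hlt : ∀ y ∈ pairGen, y < 3510 := fun y hy => (pts3_lt (seeds3_cover y hy).1).1
  have h0 : pairGen.getD 0 0 < 3510 := by decide +kernel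
  obtain ⟨-, t, ht, e⟩ := ord_reach hlt h0 _ _ tree3_check (root_reach pairGen h0) z
    (by simpa using List.all_eq_true.1 tree3_cover z hz)
  exact ⟨t, ht, _, List.mem_cons_self, e⟩

theorem CX_le_dom : CX ≤ geo3.dom := fun g hg =>
  Geo.stab_dom geo3_ok gen3_check comm3_check geo3_reach (seeds := pairGen) seeds3_cover der3_check cov3_check
    geo3_hdec (fun _ _ hu hv h => Geo.same_lab geo3_ok gen3_check comm3_check geo3_reach bNondeg6 (CX_maps hg) hu hv h)
    (CX_maps hg)

theorem T3_le : geo3.T ≤ CX := by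
  rw [Geo.T, Subgroup.closure_le]
  rintro g ⟨y, hy, rfl⟩
  obtain ⟨h1, h2⟩ := pts3_lt (seeds3_cover y hy).1
  exact tr_mem_fixSub h1 h2

/-- The hom to the orthogonal group. -/
noncomputable def toGO3 : ↥CX →* ↥geo3.O := (Geo.toO geo3_ok).comp (Subgroup.inclusion CX_le_dom)

theorem toGO3_surjective : Function.Surjective toGO3 := fun M => by
  obtain ⟨g, hg, hR⟩ := Geo.map_T_top geo3_ok gen3_check cov3_check geo3_hdec bNondeg6 notExceptional6 M
  exact ⟨⟨g, T3_le hg⟩, Geo.toO_eq geo3_ok hR⟩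

theorem enc6_dec6' : ∀ n : Fin 64, (List.range 6).foldl (fun r i =>
    r + if dec6' n ([Sum.inl (Sum.inl 0), Sum.inl (Sum.inl 1), Sum.inl (Sum.inr 0), Sum.inl (Sum.inr 1),
      Sum.inr 0, Sum.inr 1].getD i (Sum.inr 1)) = 1 then 2 ^ i else 0) 0 = n := by decide +kernel

theorem dec6'_inj {m n : ℕ} (hm : m < 64) (hn : n < 64) (h : dec6' m = dec6' n) : m = n := by
  have h1 := enc6_dec6' ⟨m, hm⟩
  have h2 := enc6_dec6' ⟨n, hn⟩
  simp only [h] at h1
  exact congrArg Fin.val (h1.symm.trans h2)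

/-- The twin. -/
def twn (z : ℕ) : ℕ := lookN pairTwin z

theorem twn_facts {z : ℕ} (hz : z ∈ pairPts) : twn z ∈ pairPts ∧ twn z ≠ z ∧ twn (twn z) = z := by
  have h := List.all_eq_true.1 twin_check z hz
  simp only [Bool.and_eq_true, Bool.not_eq_true', List.contains_iff_mem] at h
  refine ⟨h.1.1.1, fun e => ?_, Nat.eq_of_beq_eq_true h.1.2⟩
  have h2 := h.1.1.2
  rw [show lookN pairTwin z = z from e, Nat.beq_refl] at h2
  exact absurd h2 (by simp)

theorem ker_cases {g : ↥CX} (hg : g ∈ toGO3.ker) {z : ℕ} (hz : z ∈ pairPts) :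
    ((pRep (g : G22) (ptF z) : Fin 3510) : ℕ) = z ∨ ((pRep (g : G22) (ptF z) : Fin 3510) : ℕ) = twn z := by
  have h := Geo.toO_rel geo3_ok (Subgroup.inclusion CX_le_dom g)
  rw [show Geo.toO geo3_ok (Subgroup.inclusion CX_le_dom g) = 1 from hg] at h
  obtain ⟨hm, he⟩ := h (ptF z) (by rw [ptF_val' (pts3_lt hz).1]; exact hz)
  rw [ptF_val' (pts3_lt hz).1] at he
  simp only [OneMemClass.coe_one, gv_one] at he
  have hl := dec6'_inj (geo3_ok.pts z hz).2.1 (geo3_ok.pts _ hm).2.1 he
  have h1 := List.all_eq_true.1 twin_check z hz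
  simp only [Bool.and_eq_true] at h1
  have h2 := List.all_eq_true.1 h1.2 _ hm
  simp only [Bool.or_eq_true, Bool.not_eq_true'] at h2
  rcases h2 with (h2 | h2) | h2
  · exfalso
    have hl' : lookN pairLab ((pRep ((g : ↥CX) : G22) (ptF z) : Fin 3510) : ℕ) = lookN pairLab z := hl.symm
    have h3 : Nat.beq (lookN pairLab ((pRep ((g : ↥CX) : G22) (ptF z) : Fin 3510) : ℕ)) (lookN pairLab z) = false := h2
    rw [hl', Nat.beq_refl] at h3
    exact absurd h3 (by simp)
  · exact Or.inl (Nat.eq_of_beq_eq_true h2)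
  · exact Or.inr (Nat.eq_of_beq_eq_true h2)

/-- A kernel element moves a twin to the twin of the image. -/
theorem ker_twin {g : ↥CX} (hg : g ∈ toGO3.ker) {z : ℕ} (hz : z ∈ pairPts) :
    ((pRep (g : G22) (ptF (twn z)) : Fin 3510) : ℕ) = twn ((pRep (g : G22) (ptF z) : Fin 3510) : ℕ) := by
  obtain ⟨h1, h2, h3⟩ := twn_facts hz
  have hne : ((pRep (g : G22) (ptF (twn z)) : Fin 3510) : ℕ) ≠ ((pRep (g : G22) (ptF z) : Fin 3510) : ℕ) := fun e => by
    have := congrArg Fin.val ((pRep (g : G22)).injective (Fin.ext e))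
    rw [ptF_val' (pts3_lt h1).1, ptF_val' (pts3_lt hz).1] at this
    exact h2 this
  rcases ker_cases hg hz with e | e <;> rcases ker_cases hg h1 with e' | e' <;> rw [e] at hne ⊢
  · exact e'
  · rw [e', h3] at hne; exact absurd rfl hne
  · exact absurd e' hne
  · rw [e']

/-- A kernel element trivial on the seeds is trivial. -/
theorem ker_rigid {g : ↥CX} (hg : g ∈ toGO3.ker)
    (h : ∀ j : Fin 6, pRep (g : G22) (ptF (pairSeed.getD j 0)) = ptF (pairSeed.getD j 0)) : g = 1 := by
  have hseed : ∀ s ∈ pairSeed, pRep (g : G22) (ptF s) = ptF s := by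
    intro s hs
    have hc : ∀ s ∈ pairSeed, ∃ j : Fin 6, pairSeed.getD j 0 = s := by decide +kernel
    obtain ⟨j, rfl⟩ := hc s hs
    exact h j
  have hbase : ∀ z ∈ pairGen, z ∈ pairPts ∧ pRep (g : G22) (ptF z) = ptF z := by
    intro z hz
    have hp := (seeds3_cover z hz).1
    refine ⟨hp, ?_⟩
    rcases gen_cases z hz with h1 | h1
    · exact hseed z h1
    · obtain ⟨t1, -, t3⟩ := twn_facts hp
      have h2 := ker_twin hg t1
      have e1 : pRep (g : G22) (ptF (twn z)) = ptF (twn z) := hseed _ h1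
      rw [t3, e1, ptF_val' (pts3_lt t1).1] at h2
      exact Fin.ext (h2.trans (by rw [ptF_val' (pts3_lt hp).1]; exact t3))
  have hd := der3_check
  simp only [Geo.derB, Bool.and_eq_true, List.all_eq_true] at hd
  refine Subtype.ext (rigid rigid3_check fun s hs => ?_)
  have hs' := hd.2 s hs
  refine (ordB_induction (P := fun z => z ∈ pairPts → pRep (g : G22) (ptF z) = ptF z) geo3.der pairGen hd.1
    (fun z hz _ => (hbase z hz).2) ?_ s (by simpa using hs')) hs
  intro y x hp hy hx _
  simp only [Bool.and_eq_true] at hp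
  have hyp : y ∈ pairPts := by
    have := hp.1.1; simpa [geo3] using this
  have hxp : x ∈ pairPts := by
    have := hp.1.2; simpa [geo3] using this
  have h1 := mv_transport (g : G22) (ptF y) (ptF x)
  rw [hy hyp, hx hxp, ptF_val' (pts3_lt hyp).1, ptF_val' (pts3_lt hxp).1] at h1
  exact h1

theorem seed3_pts : ∀ j : Fin 6, pairSeed.getD j 0 ∈ pairPts := by decide +kernel

theorem seed3_lt (j : Fin 6) : pairSeed.getD j 0 < 3510 := (pts3_lt (seed3_pts j)).1

/-- The flips of the seeds. -/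
noncomputable def flipHom : ↥toGO3.ker →* Multiplicative (Fin 6 → ZMod 2) where
  toFun g := Multiplicative.ofAdd fun j =>
    if ((pRep ((g : ↥CX) : G22) (ptF (pairSeed.getD j 0)) : Fin 3510) : ℕ) = pairSeed.getD j 0 then 0 else 1
  map_one' := by
    refine congrArg Multiplicative.ofAdd (funext fun j => ?_)
    have hj : pairSeed.getD j 0 < 3510 := seed3_lt j
    simp only [OneMemClass.coe_one, map_one, Equiv.Perm.one_apply, ptF_val' hj, if_true]
    rfl
  map_mul' a b := by
    refine congrArg Multiplicative.ofAdd (funext fun j => ?_)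
    have hj : pairSeed.getD j 0 ∈ pairPts := seed3_pts j
    set s := pairSeed.getD (j : ℕ) 0 with hs
    obtain ⟨t1, t2, t3⟩ := twn_facts hj
    have hsv := ptF_val' (pts3_lt hj).1
    show (if ((pRep (((a * b : ↥toGO3.ker) : ↥CX) : G22) (ptF s) : Fin 3510) : ℕ) = s then (0 : ZMod 2) else 1) =
      (if ((pRep ((a : ↥CX) : G22) (ptF s) : Fin 3510) : ℕ) = s then (0 : ZMod 2) else 1) +
        (if ((pRep ((b : ↥CX) : G22) (ptF s) : Fin 3510) : ℕ) = s then (0 : ZMod 2) else 1)
    simp only [Subgroup.coe_mul, map_mul, Equiv.Perm.mul_apply]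
    rw [← ptF_self (pRep ((b : ↥CX) : G22) (ptF s))]
    rcases ker_cases b.2 hj with eb | eb <;> rw [eb]
    · rw [ptF_val' (pts3_lt hj).1, if_pos rfl, add_zero]
    · rw [ker_twin a.2 hj, ptF_val' (pts3_lt t1).1, if_neg t2]
      rcases ker_cases a.2 hj with ea | ea <;> rw [ea]
      · rw [if_neg t2, if_pos rfl]; decide
      · rw [t3, if_pos rfl, if_neg t2]; decide

theorem flipHom_bijective : Function.Bijective flipHom := by
  constructor
  · rw [injective_iff_map_eq_one]
    intro g hg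
    refine Subtype.ext (ker_rigid g.2 fun j => ?_)
    have h := congrFun (congrArg Multiplicative.toAdd hg) j
    have hj : pairSeed.getD j 0 < 3510 := seed3_lt j
    refine Fin.ext ?_
    rw [ptF_val' hj]
    by_contra hne
    change (if _ then (0 : ZMod 2) else 1) = 0 at h
    rw [if_neg hne] at h
    exact absurd h (by decide)
  · have hun : ∀ k : Fin 6, Multiplicative.ofAdd (Pi.single k (1 : ZMod 2)) ∈ flipHom.range := by
      intro k
      have h := List.all_eq_true.1 flip_check k (List.mem_finRange _)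
      simp only [Bool.and_eq_true, List.all_eq_true, List.contains_iff_mem] at h
      obtain ⟨⟨hl, hp⟩, hj⟩ := h
      have hel : el (pairFlip.getD k []) ∈ CX := by
        have key : ∀ l : List ℕ, (∀ y ∈ l, y ∈ pairPts) → el l ∈ CX := by
          intro l
          induction l with
          | nil => intro _; rw [el_nil]; exact one_mem _
          | cons y l ih =>
            intro hl
            rw [el_cons]
            exact mul_mem (tr_mem_fixSub (pts3_lt (hl y List.mem_cons_self)).1 (pts3_lt (hl y List.mem_cons_self)).2)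
              (ih fun z hz => hl z (List.mem_cons_of_mem _ hz))
        exact key _ hl
      have hker : (⟨el (pairFlip.getD k []), hel⟩ : ↥CX) ∈ toGO3.ker := by
        refine Geo.toO_eq geo3_ok (fun z hz => ?_)
        obtain ⟨h1, h2⟩ := hp _ hz
        show ((pRep (el (pairFlip.getD k [])) z : Fin 3510) : ℕ) ∈ geo3.pts ∧ _ = geo3.dec (geo3.lab ((pRep (el (pairFlip.getD k [])) z : Fin 3510) : ℕ))
        rw [pRep_el]
        exact ⟨h1, by
          rw [show geo3.lab (act (pairFlip.getD k []) z) = geo3.lab z from Nat.eq_of_beq_eq_true h2]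
          simp [gv_one]⟩
      refine ⟨⟨_, hker⟩, congrArg Multiplicative.ofAdd (funext fun j => ?_)⟩
      have hjk := hj j (List.mem_finRange _)
      have hjv : pairSeed.getD j 0 < 3510 := seed3_lt j
      show (if ((pRep (el (pairFlip.getD k [])) (ptF (pairSeed.getD j 0)) : Fin 3510) : ℕ) = pairSeed.getD j 0 then (0 : ZMod 2) else 1) = (Pi.single k 1 : Fin 6 → ZMod 2) j
      rw [pRep_el, ptF_val' hjv]
      by_cases hkj : j = k
      · subst hkj
        rw [Pi.single_eq_same]
        simp only [Nat.beq_refl, Bool.not_true, beq_iff_eq] at hjk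
        rw [if_neg fun e => by rw [e, Nat.beq_refl] at hjk; exact absurd hjk (by simp)]
      · rw [Pi.single_eq_of_ne hkj]
        have : Nat.beq (k : ℕ) (j : ℕ) = false := by
          rw [← Bool.not_eq_true]; exact fun e => hkj (Fin.ext (Nat.eq_of_beq_eq_true e).symm)
        simp only [this, Bool.not_false, beq_iff_eq] at hjk
        rw [if_pos (Nat.eq_of_beq_eq_true hjk)]
    intro v
    have hv : v = ∏ k, Multiplicative.ofAdd (Pi.single k (Multiplicative.toAdd v k)) := by
      rw [← ofAdd_sum, Finset.univ_sum_single]; rfl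
    have hm : v ∈ flipHom.range := by
      rw [hv]
      refine Subgroup.prod_mem _ fun k _ => ?_
      have hc : ∀ c : ZMod 2, c = 0 ∨ c = 1 := by decide
      rcases hc (Multiplicative.toAdd v k) with e | e <;> rw [e]
      · rw [Pi.single_zero]; exact one_mem _
      · exact hun k
    exact hm

/-- The structure of the fixed subgroup of the third kind. -/
theorem CX_facts : ∃ O : Subgroup G22,
    O = (Cfsg.pCore 2 ↥CX).map CX.subtype ∧ Cfsg.IsElementaryAbelian 2 O ∧ Nat.card O = 64 ∧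
      ∃ _ : (O.subgroupOf CX).Normal,
        Nonempty (↥CX ⧸ O.subgroupOf CX ≃* Cfsg.isometryGroup (ZMod 2) (Cfsg.quadFormMinus 2 (ZMod 2) 1 1)) := by
  haveI : Fact (Nat.Prime 2) := ⟨Nat.prime_two⟩
  obtain ⟨π, hs, hk⟩ : ∃ π : ↥CX →* ↥(Cfsg.isometryGroup (ZMod 2) (Cfsg.quadFormMinus 2 (ZMod 2) 1 1)),
      Function.Surjective π ∧ π.ker = toGO3.ker := by
    have gen : ∀ q : (I6 → ZMod 2) → ZMod 2, ⇑geo3.R = q → ∃ π : ↥CX →* ↥(Cfsg.isometryGroup (ZMod 2) q),
        Function.Surjective π ∧ π.ker = toGO3.ker := by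
      rintro q rfl
      exact ⟨toGO3, toGO3_surjective, rfl⟩
    exact gen _ (funext (minusQF_apply 2 1 1))
  let f := MulEquiv.ofBijective flipHom flipHom_bijective
  have hcard : Nat.card ↥toGO3.ker = 64 := by
    rw [Nat.card_congr f.toEquiv, Nat.card_congr Multiplicative.toAdd, Nat.card_fun, Nat.card_zmod, Nat.card_fin]
    rfl
  have hp : IsPGroup 2 π.ker := by
    rw [hk]; exact IsPGroup.of_card (n := 6) (by rw [hcard]; norm_num)
  have hcore : Cfsg.pCore 2 ↥CX = π.ker := by
    refine le_antisymm ?_ (le_sSup ⟨inferInstance, hp⟩)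
    refine sSup_le fun N hN => ?_
    haveI := hN.1
    haveI := hN.1.map π hs
    exact (Subgroup.map_eq_bot_iff _).1 (FiPair.two_core_bot (N.map π) (hN.2.map π))
  refine ⟨(Cfsg.pCore 2 ↥CX).map CX.subtype, rfl, ?_, ?_, ?_⟩
  · rw [hcore, hk]
    have hcomm : ∀ a b : ↥toGO3.ker, a * b = b * a := fun a b => f.injective (by
      rw [map_mul, map_mul, mul_comm])
    refine ⟨⟨⟨fun a b => ?_⟩⟩, ?_⟩
    · obtain ⟨x, hx, hxa⟩ := a.2
      obtain ⟨y, hy, hyb⟩ := b.2
      refine Subtype.ext ?_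
      rw [Subgroup.coe_mul, Subgroup.coe_mul, ← hxa, ← hyb, ← map_mul, ← map_mul]
      exact congrArg CX.subtype (congrArg Subtype.val (hcomm ⟨x, hx⟩ ⟨y, hy⟩))
    · rintro _ ⟨x, hx, rfl⟩
      have h2 : (⟨x, hx⟩ : ↥toGO3.ker) ^ 2 = 1 := f.injective (by
        have hz : ∀ v : Fin 6 → ZMod 2, v + v = 0 := fun v => funext fun i => CharTwo.add_self_eq_zero _
        rw [pow_two, map_mul, map_one]
        exact congrArg Multiplicative.ofAdd (hz (Multiplicative.toAdd (f ⟨x, hx⟩))))
      rw [← map_pow, show x ^ 2 = 1 from congrArg Subtype.val h2, map_one]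
  · rw [Subgroup.card_map_of_injective Subtype.val_injective, hcore, hk, hcard]
  · have e : ((Cfsg.pCore 2 ↥CX).map CX.subtype).subgroupOf CX = π.ker := by
      rw [← hcore]; exact Subgroup.comap_map_eq_self_of_injective CX.subtype_injective _
    have hn : (((Cfsg.pCore 2 ↥CX).map CX.subtype).subgroupOf CX).Normal := by rw [e]; infer_instance
    exact ⟨hn, ⟨(QuotientGroup.quotientMulEquivOfEq e).trans (QuotientGroup.quotientKerEquivOfSurjective π hs)⟩⟩

end Cfsg.Agent.SporB.FiOutInv
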