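import Cfsg.Agent.SporB.FiOutInv.Syl

/-! The three classes of outer involutions. -/

set_option autoImplicit false
set_option maxRecDepth 100000

namespace Cfsg.Agent.SporB.FiOutInv

open Cfsg.Agent.CosetCert Cfsg.Agent.SporB.FischerU Cfsg.Agent.SporB.FiPair

local notation "G22" => Cfsg.Spor.Fi22

theorem conj_inj : Function.Injective (MulAut.conj : G22 →* MulAut G22) := by
  rw [injective_iff_map_eq_one]
  intro g hg
  refine eq_one_of_gens fun i => ?_
  have h1 := DFunLike.congr_fun hg (tr (genPt i))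
  change g * tr (genPt i) * g⁻¹ = tr (genPt i) at h1
  rw [FischerU.conj_tr] at h1
  exact tr_injective h1

theorem swap_sq : swapAut * swapAut = 1 := MulEquiv.ext swap_swap

theorem swap_conj (g : G22) : swapAut * MulAut.conj g = MulAut.conj (swapAut g) * swapAut := by
  ext z
  simp only [MulAut.mul_apply, MulAut.conj_apply, map_mul, map_inv]

theorem aut_split (α : MulAut G22) : α ∈ Cfsg.Inn G22 ∨ ∃ g, α = MulAut.conj g * swapAut := by
  by_cases h : α ∈ Cfsg.Inn G22
  · exact Or.inl h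
  · refine Or.inr ?_
    have hi : (Cfsg.Inn G22).index = 2 := card_out_fi
    have h2 : α * swapAut ∈ Cfsg.Inn G22 := by
      rw [Subgroup.mul_mem_iff_of_index_two hi]
      exact iff_of_false h swapAut_not_inner
    obtain ⟨g, hg⟩ := h2
    exact ⟨g, by rw [hg, mul_assoc, swap_sq, mul_one]⟩

theorem card_aut : Nat.card (MulAut G22) = 2 * Nat.card G22 := by
  rw [Subgroup.card_eq_card_quotient_mul_card_subgroup (Cfsg.Inn G22)]
  have h : Nat.card ↥(Cfsg.Inn G22) = Nat.card G22 :=
    (Nat.card_congr (MonoidHom.ofInjective conj_inj).toEquiv).symm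
  rw [h, show Nat.card (MulAut G22 ⧸ Cfsg.Inn G22) = 2 from card_out_fi]

/-- The Sylow 2-subgroup extended by the symmetry. -/
noncomputable def SX : Subgroup (MulAut G22) where
  carrier := {α | ∃ s ∈ SY, α = MulAut.conj s ∨ α = MulAut.conj s * swapAut}
  one_mem' := ⟨1, one_mem _, Or.inl (map_one _).symm⟩
  mul_mem' := by
    rintro _ _ ⟨s, hs, rfl | rfl⟩ ⟨t, ht, rfl | rfl⟩
    · exact ⟨s * t, mul_mem hs ht, Or.inl (map_mul _ _ _).symm⟩
    · exact ⟨s * t, mul_mem hs ht, Or.inr (by rw [map_mul, mul_assoc])⟩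
    · exact ⟨s * swapAut t, mul_mem hs (swap_SS 17 ht), Or.inr (by rw [mul_assoc, swap_conj, map_mul, mul_assoc])⟩
    · refine ⟨s * swapAut t, mul_mem hs (swap_SS 17 ht), Or.inl ?_⟩
      rw [mul_assoc, ← mul_assoc swapAut, swap_conj, mul_assoc (MulAut.conj (swapAut t)), swap_sq, mul_one,
        map_mul]
  inv_mem' := by
    rintro _ ⟨s, hs, rfl | rfl⟩
    · exact ⟨s⁻¹, inv_mem hs, Or.inl (map_inv _ _).symm⟩
    · refine ⟨swapAut s⁻¹, swap_SS 17 (inv_mem hs), Or.inr ?_⟩
      rw [mul_inv_rev, inv_eq_of_mul_eq_one_right swap_sq, ← map_inv, swap_conj]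

theorem card_SX : Nat.card ↥SX = 2 ^ 18 := by
  classical
  let f : Bool × ↥SY → ↥SX := fun p => ⟨MulAut.conj (p.2 : G22) * if p.1 then swapAut else 1, by
    refine ⟨p.2, p.2.2, ?_⟩
    cases p.1
    · exact Or.inl (mul_one _)
    · exact Or.inr rfl⟩
  have hb : Function.Bijective f := by
    constructor
    · rintro ⟨a, x⟩ ⟨b, y⟩ h
      have h' := congrArg Subtype.val h
      have hne : ∀ x y : G22, MulAut.conj x * swapAut ≠ MulAut.conj y := fun x y e => swapAut_not_inner
        ⟨x⁻¹ * y, by rw [map_mul, map_inv, ← e, inv_mul_cancel_left]⟩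
      cases a <;> cases b <;> simp only [f, if_true, Bool.false_eq_true, if_false, mul_one] at h'
      · rw [Subtype.ext (conj_inj h')]
      · exact absurd h'.symm (hne _ _)
      · exact absurd h' (hne _ _)
      · rw [Subtype.ext (conj_inj (mul_right_cancel h'))]
    · rintro ⟨_, s, hs, rfl | rfl⟩
      · exact ⟨(false, ⟨s, hs⟩), Subtype.ext (by simp [f])⟩
      · exact ⟨(true, ⟨s, hs⟩), Subtype.ext (by simp [f])⟩
  rw [← Nat.card_eq_of_bijective f hb, Nat.card_prod, card_SS 17 le_rfl]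
  norm_num

/-- Every outer involution is conjugate to a representative. -/
theorem classify {t : MulAut G22} (h2 : t * t = 1) (hn : t ∉ Cfsg.Inn G22) :
    ∃ r : Fin 3, IsConj t (outer (repW r)) := by
  haveI := finite_G
  haveI : Fact (Nat.Prime 2) := ⟨Nat.prime_two⟩
  haveI : Finite (MulAut G22) := Nat.finite_of_card_ne_zero (by
    rw [card_aut, CosetEnum.FiTwentyTwo.main.2]; norm_num)
  have hp : IsPGroup 2 ↥SX := IsPGroup.of_card (n := 18) card_SX
  obtain ⟨P, hP⟩ := hp.exists_le_sylow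
  have hPX : (P : Subgroup (MulAut G22)) = SX := by
    refine (Subgroup.eq_of_le_of_card_ge hP ?_).symm
    obtain ⟨n, hn'⟩ := IsPGroup.iff_card.1 P.2
    rw [hn', card_SX]
    refine Nat.pow_le_pow_right two_pos ?_
    by_contra hlt
    have hd := Subgroup.card_subgroup_dvd_card (P : Subgroup (MulAut G22))
    rw [hn', card_aut, CosetEnum.FiTwentyTwo.main.2] at hd
    have h19 := (pow_dvd_pow 2 (show 19 ≤ n by omega)).trans hd
    norm_num at h19
  have hz : IsPGroup 2 ↥(Subgroup.zpowers t) := by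
    intro x
    refine ⟨1, ?_⟩
    obtain ⟨k, hk⟩ := Subgroup.mem_zpowers_iff.1 x.2
    refine Subtype.ext ?_
    rw [SubmonoidClass.coe_pow, ← hk, OneMemClass.coe_one, pow_one, pow_two, ← (Commute.refl t).mul_zpow, h2, one_zpow]
  obtain ⟨Q, hQ⟩ := hz.exists_le_sylow
  obtain ⟨c, hc⟩ := MulAction.exists_smul_eq (MulAut G22) Q P
  have hmem : c * t * c⁻¹ ∈ SX := by
    rw [← hPX, ← hc, Sylow.coe_subgroup_smul]
    exact Subgroup.smul_mem_pointwise_smul t (MulAut.conj c) _ (hQ (Subgroup.mem_zpowers t))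
  obtain ⟨s, hs, e | e⟩ := hmem
  · exfalso
    refine hn ?_
    have : t = c⁻¹ * MulAut.conj s * c⁻¹⁻¹ := by rw [← e]; group
    rw [this]
    exact (inferInstance : (Cfsg.Inn G22).Normal).conj_mem _ ⟨s, rfl⟩ _
  · have hsq : swapAut s * s = 1 := by
      have h1 : (c * t * c⁻¹) * (c * t * c⁻¹) = 1 := by
        rw [show (c * t * c⁻¹) * (c * t * c⁻¹) = c * (t * t) * c⁻¹ by group, h2, mul_one, mul_inv_cancel]
      rw [e, mul_assoc, ← mul_assoc swapAut, swap_conj, mul_assoc (MulAut.conj (swapAut s)), swap_sq, mul_one,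
        ← map_mul] at h1
      have h3 : s * swapAut s = 1 := conj_inj (h1.trans (map_one _).symm)
      exact mul_eq_one_comm.1 h3
    obtain ⟨r, hr⟩ := good_SY hs hsq
    exact ⟨r, (isConj_iff.2 ⟨c, e⟩).trans hr⟩

/-- The fixed points of a representative. -/
noncomputable def fixCount (w : List ℕ) : ℕ := ((Finset.range 3510).filter fun x => Nat.beq (sg w x) x = true).card

theorem count_check : fixCount [] = 360 ∧ fixCount [16] = 64 ∧ fixCount [16, 17] = 72 := by decide +kernel

theorem aut_tr (α : MulAut G22) (z : Fin 3510) : ∃ p, α (tr z) = tr p := by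
  rcases aut_split α with ⟨g, rfl⟩ | ⟨g, rfl⟩
  · exact ⟨_, FischerU.conj_tr g z⟩
  · obtain ⟨p, -, hp⟩ := swap_tr z
    exact ⟨pRep g p, by rw [MulAut.mul_apply, hp, MulAut.conj_apply, FischerU.conj_tr]⟩

theorem count_eq (w : List ℕ) :
    fixCount w = Nat.card {z : Fin 3510 // outer w (tr z) = tr z} := by
  have hfix : ∀ z : Fin 3510, (outer w (tr z) = tr z ↔ sg w z = z) := fun z => by
    conv_lhs => arg 1; rw [← ptF_self z, outer_tr]
    constructor
    · intro e
      have := congrArg Fin.val (tr_injective e)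
      rwa [ptF_val' (show sg w z < 3510 from piA_lt _)] at this
    · intro e; rw [e, ptF_self]
  rw [fixCount, ← Nat.card_eq_finsetCard]
  exact Nat.card_congr
    { toFun := fun x => ⟨⟨x.1, Finset.mem_range.1 (Finset.mem_filter.1 x.2).1⟩,
        (hfix _).2 (Nat.eq_of_beq_eq_true (Finset.mem_filter.1 x.2).2)⟩
      invFun := fun z => ⟨z.1.1, Finset.mem_filter.2 ⟨Finset.mem_range.2 z.1.2, Nat.beq_eq.mpr ((hfix _).1 z.2)⟩⟩
      left_inv := fun _ => rfl
      right_inv := fun _ => rfl }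

theorem conj_count {w v : List ℕ} (h : IsConj (outer w) (outer v)) : fixCount w = fixCount v := by
  obtain ⟨c, hc⟩ := isConj_iff.1 h
  rw [count_eq, count_eq]
  choose f hf using aut_tr c
  have key : ∀ z, outer v (tr (f z)) = tr (f z) ↔ outer w (tr z) = tr z := fun z => by
    rw [← hf, ← hc, MulAut.mul_apply, MulAut.mul_apply, MulAut.inv_apply_self]
    exact c.injective.eq_iff
  have hfi : Function.Injective f := fun a b e => tr_injective (c.injective (by rw [hf, hf, e]))
  refine Nat.card_eq_of_bijective (fun z => ⟨f z.1, (key z.1).2 z.2⟩) ⟨fun a b e => Subtype.ext (hfi (congrArg Subtype.val e)), fun z => ?_⟩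
  obtain ⟨y, hy⟩ := (Finite.injective_iff_surjective.1 hfi) z.1
  exact ⟨⟨y, (key y).1 (hy ▸ z.2)⟩, Subtype.ext hy⟩

theorem not_conj : ∀ r q : Fin 3, r ≠ q → ¬ IsConj (outer (repW r)) (outer (repW q)) := by
  intro r q hne h
  have e := conj_count h
  have hc := count_check
  fin_cases r <;> fin_cases q <;> simp_all [repW]

end Cfsg.Agent.SporB.FiOutInv
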