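import Cfsg.Agent.SporB.FiOutInv.CompChecks

/-! The centraliser of the symmetry and its three components. -/

set_option autoImplicit false
set_option maxRecDepth 100000

namespace Cfsg.Agent.SporB.FiOutInv

open Cfsg.Agent.CosetCert Cfsg.Agent.SporB.FischerU Cfsg.Agent.SporB.FiPair

local notation "G22" => Cfsg.Spor.Fi22

/-- The centraliser of the symmetry. -/
noncomputable abbrev CS : Subgroup G22 := fixSub []

theorem sg_nil (x : ℕ) : sg [] x = piA x := by
  simp only [sg, act, piA, Nat.mod_mod]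

theorem comp_lt {i : Fin 3} {z : ℕ} (h : z ∈ comp i) : z < 3510 ∧ piA z = z := by
  have := List.all_eq_true.1 (comp_fixed i) z h
  simpa using this

theorem mem_comp_iff {x : ℕ} (hx : x < 3510) : piA x = x ↔ ∃ i, x ∈ comp i := by
  constructor
  · intro h
    have h1 := allB_spec_zero fixed_check (by norm_num : 3510 ≤ 2 ^ 12) hx
    simp only [Bool.or_eq_true, Bool.not_eq_true', List.any_eq_true] at h1
    rcases h1 with (h1 | h1) | ⟨i, -, h1⟩
    · exact absurd (Nat.le_of_ble_eq_true h1) (not_le.2 hx)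
    · rw [h, Nat.beq_refl] at h1; exact absurd h1 (by simp)
    · exact ⟨i, by simpa using h1⟩
  · rintro ⟨i, hi⟩; exact (comp_lt hi).2

theorem disjoint_comp {i j : Fin 3} {z : ℕ} (hi : z ∈ comp i) (hj : z ∈ comp j) : i = j := by
  by_contra hne
  have h := List.all_eq_true.1 (comp_disjoint i j hne) z hj
  simp [hi] at h

/-- The group of a component. -/
noncomputable def TT (i : Fin 3) : Subgroup G22 := Subgroup.closure {g | ∃ y ∈ cgen i, g = tr (ptF y)}

theorem tr_mem_CS {i : Fin 3} {z : ℕ} (h : z ∈ comp i) : tr (ptF z) ∈ CS :=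
  tr_mem_fixSub (comp_lt h).1 (by rw [sg_nil, (comp_lt h).2])

theorem TT_le_CS (i : Fin 3) : TT i ≤ CS := by
  rw [TT, Subgroup.closure_le]
  rintro g ⟨y, hy, rfl⟩
  exact tr_mem_CS (gen_mem i y hy)

theorem CS_maps {g : G22} (hg : g ∈ CS) {z : Fin 3510} {i : Fin 3} (hz : (z : ℕ) ∈ comp i) :
    ∃ j, ((pRep g z : Fin 3510) : ℕ) ∈ comp j := by
  refine (mem_comp_iff (Fin.isLt _)).1 ?_
  have h := fix_maps hg (z := z) (by rw [sg_nil, (comp_lt hz).2])
  rwa [sg_nil] at h

/-- An element preserving a component. -/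
theorem TT_pres {i : Fin 3} {g : G22} (hg : g ∈ TT i) :
    ∀ z : Fin 3510, (z : ℕ) ∈ comp i ↔ ((pRep g z : Fin 3510) : ℕ) ∈ comp i := by
  induction hg using Subgroup.closure_induction with
  | mem g hg =>
    obtain ⟨y, hy, rfl⟩ := hg
    have hy3 := (comp_lt (gen_mem i y hy)).1
    have fwd : ∀ z : Fin 3510, (z : ℕ) ∈ comp i → ((pRep (tr (ptF y)) z : Fin 3510) : ℕ) ∈ comp i := by
      intro z hz
      rw [FiPair.pRep_tr, ptF_val' hy3]
      have := List.all_eq_true.1 (List.all_eq_true.1 (gen_pres i) y hy) _ hz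
      simpa using this
    intro z
    refine ⟨fwd z, fun h => ?_⟩
    have h1 := fwd _ h
    rwa [← Equiv.Perm.mul_apply, ← map_mul, tr_mul_self, map_one, Equiv.Perm.one_apply] at h1
  | one => intro z; simp
  | mul a b _ _ ha hb => intro z; rw [hb z, ha (pRep b z), map_mul, Equiv.Perm.mul_apply]
  | inv a _ ha =>
    intro z
    have h := ha (pRep a⁻¹ z)
    rw [map_inv, Equiv.Perm.inv_def, Equiv.apply_symm_apply] at h
    rw [map_inv, Equiv.Perm.inv_def]
    exact h.symm

theorem reach (i : Fin 3) {z : ℕ} (hz : z ∈ comp i) : ∃ t ∈ TT i, pRep t (ptF (croot i)) = ptF z := by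
  have h := ord_reach (fun y hy => (comp_lt (gen_mem i y hy)).1) (comp_lt (root_mem i)).1 _ _ (tree_check i)
    (root_reach (cgen i) (comp_lt (root_mem i)).1) z (by simpa using List.all_eq_true.1 (tree_cover i) z hz)
  exact h.2

/-- Commuting fixed transpositions lie in one component. -/
theorem comm_same {i j : Fin 3} {x z : Fin 3510} (hx : (x : ℕ) ∈ comp i) (hz : (z : ℕ) ∈ comp j)
    (h : mv x z = z) : i = j := by
  obtain ⟨t, ht, e⟩ := reach i hx
  rw [ptF_self] at e
  obtain ⟨k, hk⟩ := CS_maps (inv_mem (TT_le_CS i ht)) hz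
  have hki : k = i → i = j := by
    rintro rfl
    have h1 := (TT_pres ht (pRep t⁻¹ z)).1 hk
    rw [map_inv, Equiv.Perm.inv_def, Equiv.apply_symm_apply] at h1
    exact disjoint_comp h1 hz
  refine hki ?_
  by_contra hne
  have h4 := List.all_eq_true.1 (root_sep i k (Ne.symm hne)) _ hk
  have h5 : mv (croot i) ((pRep t⁻¹ z : Fin 3510) : ℕ) = ((pRep t⁻¹ z : Fin 3510) : ℕ) := by
    have := (mv_eq_iff t⁻¹ x z).2 h
    rwa [← e, ← Equiv.Perm.mul_apply (pRep t⁻¹), ← map_mul, inv_mul_cancel, map_one, Equiv.Perm.one_apply,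
      ptF_val' (comp_lt (root_mem i)).1] at this
  rw [h5, Nat.beq_refl] at h4
  simp at h4

theorem block {g : G22} (hg : g ∈ CS) (i : Fin 3) :
    ∃ j, ∀ z : Fin 3510, (z : ℕ) ∈ comp i → ((pRep g z : Fin 3510) : ℕ) ∈ comp j := by
  have hr : ((ptF (croot i) : Fin 3510) : ℕ) = croot i := ptF_val' (comp_lt (root_mem i)).1
  obtain ⟨j, hj⟩ := CS_maps hg (z := ptF (croot i)) (i := i) (by rw [hr]; exact root_mem i)
  refine ⟨j, ?_⟩
  have key : ∀ (l : List (ℕ × ℕ × ℕ)) (known : List ℕ), pathB (comp i) l known = true →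
      (∀ z ∈ known, z ∈ comp i ∧ ((pRep g (ptF z) : Fin 3510) : ℕ) ∈ comp j) →
      ∀ z ∈ comp i, ((pRep g (ptF z) : Fin 3510) : ℕ) ∈ comp j := by
    intro l
    induction l with
    | nil =>
      intro known h hk z hz
      exact (hk z (by simpa using List.all_eq_true.1 h z hz)).2
    | cons e l ih =>
      obtain ⟨z₀, y, x⟩ := e
      intro known h hk
      simp only [pathB, Bool.and_eq_true] at h
      obtain ⟨⟨⟨hy, hz0⟩, hc⟩, hl⟩ := h
      obtain ⟨hyc, hyj⟩ := hk y (by simpa using hy)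
      have hz0' : z₀ ∈ comp i := by simpa using hz0
      refine ih (z₀ :: known) hl fun u hu => ?_
      rcases List.mem_cons.1 hu with rfl | hu
      · refine ⟨hz0', ?_⟩
        obtain ⟨k, hk'⟩ := CS_maps hg (z := ptF u) (i := i) (by rw [ptF_val' (comp_lt hz0').1]; exact hz0')
        have h1 := (mv_eq_iff g (ptF y) (ptF u)).2 (by
          rw [ptF_val' (comp_lt hz0').1, ptF_val' (comp_lt hyc).1]; exact Nat.eq_of_beq_eq_true hc)
        rwa [comm_same hyj hk' h1]
      · exact hk u hu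
  intro z hz
  have h := key _ _ (path_check i) (fun u hu => by
    obtain rfl : u = croot i := by simpa using hu
    exact ⟨root_mem i, hj⟩) z hz
  rwa [ptF_self] at h

/-- The permutation of the components. -/
noncomputable def cmap (g : ↥CS) (i : Fin 3) : Fin 3 := (block g.2 i).choose

theorem cmap_spec (g : ↥CS) (i : Fin 3) (z : Fin 3510) (hz : (z : ℕ) ∈ comp i) :
    ((pRep (g : G22) z : Fin 3510) : ℕ) ∈ comp (cmap g i) := (block g.2 i).choose_spec z hz

theorem cmap_eq (g : ↥CS) {i j : Fin 3} (z : Fin 3510) (hz : (z : ℕ) ∈ comp i)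
    (h : ((pRep (g : G22) z : Fin 3510) : ℕ) ∈ comp j) : cmap g i = j :=
  disjoint_comp (cmap_spec g i z hz) h

theorem root_pt (i : Fin 3) : ((ptF (croot i) : Fin 3510) : ℕ) ∈ comp i := by
  rw [ptF_val' (comp_lt (root_mem i)).1]; exact root_mem i

/-- The action on the components. -/
noncomputable def cperm : ↥CS →* Equiv.Perm (Fin 3) where
  toFun g :=
    { toFun := cmap g
      invFun := cmap g⁻¹
      left_inv := fun i => cmap_eq g⁻¹ (pRep (g : G22) (ptF (croot i)))
        (cmap_spec g i _ (root_pt i)) (by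
          rw [Subgroup.coe_inv, map_inv, Equiv.Perm.inv_def, Equiv.symm_apply_apply]; exact root_pt i)
      right_inv := fun i => cmap_eq g (pRep ((g⁻¹ : ↥CS) : G22) (ptF (croot i)))
        (cmap_spec g⁻¹ i _ (root_pt i)) (by
          rw [Subgroup.coe_inv, map_inv, Equiv.Perm.inv_def, Equiv.apply_symm_apply]; exact root_pt i) }
  map_one' := Equiv.ext fun i => cmap_eq 1 _ (root_pt i) (by simpa using root_pt i)
  map_mul' a b := Equiv.ext fun i => cmap_eq (a * b) _ (root_pt i) (by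
    rw [Subgroup.coe_mul, map_mul, Equiv.Perm.mul_apply]
    exact cmap_spec a _ _ (cmap_spec b i _ (root_pt i)))

theorem cperm_apply (g : ↥CS) (i : Fin 3) : cperm g i = cmap g i := rfl

theorem cperm_gen {i : Fin 3} {y : ℕ} (hy : y ∈ cgen i) :
    cperm ⟨tr (ptF y), tr_mem_CS (gen_mem i y hy)⟩ = Equiv.swap (i + 1) (i + 2) := by
  set g : ↥CS := ⟨tr (ptF y), tr_mem_CS (gen_mem i y hy)⟩ with hg
  have hi : cperm g i = i := cmap_eq g _ (root_pt i)
    ((TT_pres (Subgroup.subset_closure (show tr (ptF y) ∈ {g | ∃ y ∈ cgen i, g = tr (ptF y)} from ⟨y, hy, rfl⟩)) _).1 (root_pt i))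
  have hj : ∀ j, i ≠ j → cperm g j ≠ j ∧ cperm g j ≠ i := by
    intro j hne
    have h := List.all_eq_true.1 (gen_swap i j hne) y hy
    simp only [Bool.and_eq_true, Bool.not_eq_true'] at h
    have hs := cmap_spec g j _ (root_pt j)
    rw [show ((g : ↥CS) : G22) = tr (ptF y) from rfl, FiPair.pRep_tr, ptF_val' (comp_lt (gen_mem i y hy)).1,
      ptF_val' (comp_lt (root_mem j)).1, ← cperm_apply] at hs
    constructor <;> intro e <;> rw [e] at hs
    · simp [hs] at h
    · simp [hs] at h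
  have key : ∀ (σ : Equiv.Perm (Fin 3)) (i : Fin 3), σ i = i → (∀ j, i ≠ j → σ j ≠ j ∧ σ j ≠ i) →
      σ = Equiv.swap (i + 1) (i + 2) := by decide +kernel
  exact key _ i hi hj

theorem cperm_surjective : Function.Surjective cperm := by
  have hne : ∀ i : Fin 3, ∃ y, y ∈ cgen i := fun i => ⟨_, List.getElem_mem (l := cgen i) (n := 0) (by
    revert i; decide +kernel)⟩
  have hsw : ∀ i : Fin 3, Equiv.swap (i + 1) (i + 2) ∈ cperm.range := fun i => by
    obtain ⟨y, hy⟩ := hne i
    exact ⟨_, cperm_gen hy⟩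
  intro σ
  have hgen : ∀ σ : Equiv.Perm (Fin 3), σ = 1 ∨ σ = Equiv.swap (1 : Fin 3) 2 ∨ σ = Equiv.swap (2 : Fin 3) 0 ∨
      σ = Equiv.swap (1 : Fin 3) 2 * Equiv.swap (2 : Fin 3) 0 ∨ σ = Equiv.swap (2 : Fin 3) 0 * Equiv.swap (1 : Fin 3) 2 ∨
      σ = Equiv.swap (1 : Fin 3) 2 * Equiv.swap (2 : Fin 3) 0 * Equiv.swap (1 : Fin 3) 2 := by decide +kernel
  have h0 : Equiv.swap (1 : Fin 3) 2 ∈ cperm.range := hsw 0
  have h1 : Equiv.swap (2 : Fin 3) 0 ∈ cperm.range := hsw 1
  show σ ∈ cperm.range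
  rcases hgen σ with rfl | rfl | rfl | rfl | rfl | rfl
  exacts [one_mem _, h0, h1, mul_mem h0 h1, mul_mem h1 h0, mul_mem (mul_mem h0 h1) h0]

end Cfsg.Agent.SporB.FiOutInv
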