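import Cfsg.Agent.SporB.FiOutInv.One

/-! Checks on the three components of the fixed transpositions. -/

set_option autoImplicit false
set_option maxRecDepth 100000

namespace Cfsg.Agent.SporB.FiOutInv

open Cfsg.Agent.CosetCert Cfsg.Agent.SporB.FischerU Cfsg.Agent.SporB.FiPair

/-- A component. -/
def comp (i : Fin 3) : List ℕ := compL.getD i []

/-- Its generating points. -/
def cgen (i : Fin 3) : List ℕ := compGen.getD i []

/-- Its root. -/
def croot (i : Fin 3) : ℕ := compRoot.getD i 0

theorem fixed_check : allB (fun x => Nat.ble 3510 x || !Nat.beq (piA x) x ||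
    (List.finRange 3).any fun i => (comp i).contains x) 12 0 = true := by decide +kernel

theorem comp_fixed : ∀ i : Fin 3, ((comp i).all fun z => Nat.blt z 3510 && Nat.beq (piA z) z) = true := by
  decide +kernel

theorem root_sep : ∀ i j : Fin 3, i ≠ j → ((comp j).all fun z => !Nat.beq (mv (croot i) z) z) = true := by
  decide +kernel

theorem comp_disjoint : ∀ i j : Fin 3, i ≠ j → ((comp j).all fun z => !(comp i).contains z) = true := by
  decide +kernel

theorem root_mem : ∀ i : Fin 3, croot i ∈ comp i := by decide +kernel

theorem gen_mem : ∀ i : Fin 3, ∀ y ∈ cgen i, y ∈ comp i := by decide +kernel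

theorem gen_pres : ∀ i : Fin 3, ((cgen i).all fun y => (comp i).all fun z => (comp i).contains (mv y z)) = true := by
  decide +kernel

theorem gen_swap : ∀ i j : Fin 3, i ≠ j → ((cgen i).all fun y =>
    !(comp j).contains (mv y (croot j)) && !(comp i).contains (mv y (croot j))) = true := by decide +kernel

theorem tree_check : ∀ i : Fin 3, treeB (cgen i) (compTree.getD i []) [croot i] = true := by
  decide +kernel

theorem tree_cover : ∀ i : Fin 3,
    ((comp i).all fun z => (croot i :: (compTree.getD i []).map Prod.fst).contains z) = true := by decide +kernel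

/-- Commuting paths from the root. -/
noncomputable def pathB (C : List ℕ) : List (ℕ × ℕ × ℕ) → List ℕ → Bool
  | [], known => C.all fun z => known.contains z
  | (z, y, _) :: l, known => known.contains y && C.contains z && Nat.beq (mv y z) z && pathB C l (z :: known)

theorem path_check : ∀ i : Fin 3, pathB (comp i) (compPath.getD i []) [croot i] = true := by decide +kernel

theorem wit_check : oneWit.all (fun p => (comp 0).contains p.1 && (comp 0).contains p.2 &&
      Nat.beq (act [p.1, p.2] (croot 0)) (croot 0)) = true ∧
    (List.finRange 3).all (fun i => (comp i).all fun u => Nat.beq u (croot 0) ||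
      oneWit.any fun p => !Nat.beq (act [p.1, p.2] u) u) = true := by decide +kernel

end Cfsg.Agent.SporB.FiOutInv
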