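import Cfsg.Agent.SporB.FiOutInv.Comp
import Cfsg.Agent.OrthGen.Index
import Cfsg.Agent.S0287
import Cfsg.Agent.POPlus.Cases
import Cfsg.Prelude.Def_KGroupFacts

/-! The centraliser of the symmetry is the automorphism group of the orthogonal group in dimension eight. -/

set_option autoImplicit false
set_option maxRecDepth 100000

namespace Cfsg.Agent.SporB.FiOutInv

open Cfsg.Agent.CosetCert Cfsg.Agent.SporB.FischerU Cfsg.Agent.SporB.FiPair
open Cfsg.Agent.Classical

local notation "G22" => Cfsg.Spor.Fi22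

theorem TT_zero : TT 0 = geo1.T := rfl

theorem geo1_pts : geo1.pts = comp 0 := rfl

theorem geo1_reach : geo1.Reach [compRoot.getD 0 0] := fun z hz => by
  obtain ⟨t, ht, e⟩ := reach 0 (z := z) hz
  exact ⟨t, ht, _, List.mem_cons_self, e⟩

theorem enc8_dec8 : ∀ n : Fin 256, (List.range 8).foldl (fun r i =>
    r + if dec8 n ([Sum.inl 0, Sum.inl 1, Sum.inl 2, Sum.inl 3, Sum.inr 0, Sum.inr 1, Sum.inr 2,
      Sum.inr 3].getD i (Sum.inr 3)) = 1 then 2 ^ i else 0) 0 = n := by decide +kernel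

theorem dec8_inj {m n : ℕ} (hm : m < 256) (hn : n < 256) (h : dec8 m = dec8 n) : m = n := by
  have h1 := enc8_dec8 ⟨m, hm⟩
  have h2 := enc8_dec8 ⟨n, hn⟩
  simp only [h] at h1
  exact congrArg Fin.val (h1.symm.trans h2)

theorem geo1_hdec : ∀ v, ∃ n < 2 ^ geo1.dim, geo1.dec n = v := fun v => by
  obtain ⟨n, hn⟩ := dec8_surj v
  exact ⟨n, n.2, hn⟩

theorem lab1_dec_inj {y z : ℕ} (hy : y ∈ comp 0) (hz : z ∈ comp 0)
    (h : geo1.dec (geo1.lab y) = geo1.dec (geo1.lab z)) : y = z :=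
  lab1_inj y hy z hz (dec8_inj (geo1_ok.pts y hy).2.1 (geo1_ok.pts z hz).2.1 h)

/-- An element inducing the identity on the labels of the component is trivial. -/
theorem rel1_one {g : G22} (h : geo1.Rel g 1) : g = 1 :=
  rigid rigid1_check fun s hs => by
    have hlt := (comp_lt (i := 0) hs).1
    obtain ⟨hm, he⟩ := h (ptF s) (by rw [ptF_val' hlt]; exact hs)
    rw [ptF_val' hlt] at he
    simp only [OneMemClass.coe_one, gv_one] at he
    refine Fin.ext ?_
    rw [ptF_val' hlt]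
    exact (lab1_dec_inj (y := s) hs hm he).symm

theorem T1_hom_bij :
    Function.Bijective ((Geo.toO geo1_ok).comp (Subgroup.inclusion (Geo.T_le_dom geo1_ok gen1_check))) := by
  constructor
  · rw [injective_iff_map_eq_one]
    intro g hg
    have h := Geo.toO_rel geo1_ok (Subgroup.inclusion (Geo.T_le_dom geo1_ok gen1_check) g)
    rw [MonoidHom.comp_apply] at hg
    rw [hg] at h
    exact Subtype.ext (rel1_one h)
  · intro M
    obtain ⟨g, hg, hR⟩ := Geo.map_T_top geo1_ok gen1_check cov1_check geo1_hdec bNondeg8 notExceptional8 M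
    exact ⟨⟨g, hg⟩, Geo.toO_eq geo1_ok hR⟩

/-- The group of the first component is the orthogonal group. -/
noncomputable def isoT1 : ↥(TT 0) ≃* ↥(geo1.O) := MulEquiv.ofBijective _ T1_hom_bij

theorem isoT1_rel (g : ↥(TT 0)) : geo1.Rel g (isoT1 g) :=
  Geo.toO_rel geo1_ok (Subgroup.inclusion (Geo.T_le_dom geo1_ok gen1_check) g)

theorem stab_mem_TT {g : ↥CS} (h : cperm g 0 = 0) : (g : G22) ∈ TT 0 := by
  have hm : ∀ z : Fin 3510, (z : ℕ) ∈ geo1.pts → ((pRep (g : G22) z : Fin 3510) : ℕ) ∈ geo1.pts := by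
    intro z hz
    have := cmap_spec g 0 z hz
    rw [← cperm_apply, h] at this
    exact this
  obtain ⟨M, hM⟩ := Geo.stab_dom geo1_ok gen1_check comm1_check geo1_reach
    (seeds := compGen.getD 0 []) (fun s hs => ⟨gen_mem 0 s hs, seeds1_cover s hs⟩) der1_check cov1_check
    geo1_hdec (g := (g : G22)) (fun u v hu hv e => by rw [lab1_inj u hu v hv e]) hm
  obtain ⟨t, ht⟩ := isoT1.surjective M
  have h1 := (isoT1_rel t).inv.mul hM
  rw [ht, inv_mul_cancel] at h1
  rw [← inv_mul_eq_one.1 (rel1_one h1)]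
  exact t.2

theorem TT_cperm {g : ↥CS} (h : (g : G22) ∈ TT 0) : cperm g = 1 ∨ cperm g = Equiv.swap 1 2 := by
  have h0 : cperm g 0 = 0 := cmap_eq g _ (root_pt 0) ((TT_pres h _).1 (root_pt 0))
  have key : ∀ σ : Equiv.Perm (Fin 3), σ 0 = 0 → σ = 1 ∨ σ = Equiv.swap 1 2 := by decide +kernel
  exact key _ h0

/-- The kernel on components. -/
noncomputable abbrev K0 : Subgroup ↥CS := cperm.ker

theorem K0_le : ∀ g ∈ K0, (g : G22) ∈ TT 0 := fun g hg => stab_mem_TT (by rw [MonoidHom.mem_ker.1 hg]; rfl)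

theorem cperm_tr {z : ℕ} (hz : z ∈ comp 0) : cperm ⟨tr (ptF z), tr_mem_CS hz⟩ = Equiv.swap 1 2 := by
  obtain ⟨t, ht, e⟩ := reach 0 hz
  have hr : croot 0 ∈ cgen 0 := by decide +kernel
  have h : (⟨tr (ptF z), tr_mem_CS hz⟩ : ↥CS) =
      ⟨t, TT_le_CS 0 ht⟩ * ⟨tr (ptF (croot 0)), tr_mem_CS (root_mem 0)⟩ * (⟨t, TT_le_CS 0 ht⟩)⁻¹ :=
    Subtype.ext (by rw [Subgroup.coe_mul, Subgroup.coe_mul, Subgroup.coe_inv, FischerU.conj_tr, e])
  have hg := cperm_gen (i := 0) hr
  rw [h, map_mul, map_mul, map_inv, hg]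
  rcases TT_cperm (g := ⟨t, TT_le_CS 0 ht⟩) ht with e' | e' <;> rw [e'] <;> decide +kernel

/-- The kernel inside the group of the component. -/
noncomputable def Wsub : Subgroup ↥(TT 0) := (cperm.comp (Subgroup.inclusion (TT_le_CS 0))).ker

/-- The kernel is that inside the group of the component. -/
noncomputable def K0equiv : ↥K0 ≃* ↥Wsub where
  toFun g := ⟨⟨((g : ↥CS) : G22), K0_le _ g.2⟩, g.2⟩
  invFun g := ⟨Subgroup.inclusion (TT_le_CS 0) (g : ↥(TT 0)), g.2⟩
  left_inv _ := rfl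
  right_inv _ := rfl
  map_mul' _ _ := rfl

theorem Wsub_index : Wsub.index = 2 := by
  rw [Wsub, Subgroup.index_ker]
  have h : (cperm.comp (Subgroup.inclusion (TT_le_CS 0))).range = Subgroup.zpowers (Equiv.swap (1 : Fin 3) 2) := by
    refine le_antisymm ?_ (Subgroup.zpowers_le.2 ?_)
    · rintro _ ⟨g, rfl⟩
      rcases TT_cperm (g := Subgroup.inclusion (TT_le_CS 0) g) g.2 with e | e <;> rw [MonoidHom.comp_apply, e]
      · exact one_mem _
      · exact Subgroup.mem_zpowers _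
    · exact ⟨⟨tr (ptF (croot 0)), Subgroup.subset_closure ⟨croot 0, by decide +kernel, rfl⟩⟩, cperm_tr (root_mem 0)⟩
  rw [h, Nat.card_zpowers]
  exact orderOf_eq_prime (by decide +kernel) (by decide +kernel)

theorem omega_index : (Cfsg.Omega (ZMod 2) ⇑geo1.R).index = 2 :=
  OrthGen.index_Omega_two geo1.R bNondeg8 (by simp) notExceptional8

theorem Wsub_map : Wsub.map isoT1.toMonoidHom = Cfsg.Omega (ZMod 2) ⇑geo1.R := by
  have hi : (Wsub.map isoT1.toMonoidHom).index = 2 := by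
    rw [show Wsub.map isoT1.toMonoidHom = Wsub.map (isoT1 : ↥(TT 0) →* ↥geo1.O) from rfl,
      Subgroup.index_map_equiv, Wsub_index]
  have hle : Cfsg.Omega (ZMod 2) ⇑geo1.R ≤ Wsub.map isoT1.toMonoidHom := by
    show commutator _ ≤ _
    rw [commutator_def, Subgroup.commutator_le]
    intro a _ b _
    simp only [commutatorElement_def, Subgroup.mul_mem_iff_of_index_two hi, inv_mem_iff]
    tauto
  refine (le_antisymm hle ?_).symm
  rw [← Subgroup.relIndex_eq_one]
  have := Subgroup.relIndex_mul_index hle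
  rw [omega_index, hi] at this
  omega

/-- The kernel is the commutator subgroup of the orthogonal group. -/
theorem K0_omega : Nonempty (↥K0 ≃* ↥(Cfsg.Omega (ZMod 2) (Cfsg.quadFormPlus 4 (ZMod 2)))) := by
  have gen : ∀ q : (J8 → ZMod 2) → ZMod 2, ⇑geo1.R = q → Nonempty (↥K0 ≃* ↥(Cfsg.Omega (ZMod 2) q)) := by
    rintro q rfl
    exact ⟨K0equiv.trans ((isoT1.subgroupMap Wsub).trans (MulEquiv.subgroupCongr Wsub_map))⟩
  exact gen _ (funext (plusQF_apply 4))

theorem finite_G22 : Finite G22 := Nat.finite_of_card_ne_zero (by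
  rw [CosetEnum.FiTwentyTwo.main.2]; norm_num)

theorem card_TT0 : Nat.card ↥(TT 0) = 348364800 := by
  rw [Nat.card_congr isoT1.toEquiv]
  have h := S0287.result (F := ZMod 2) (ZMod.card 2) 4 (by norm_num)
  have gen : ∀ q : (J8 → ZMod 2) → ZMod 2, ⇑geo1.R = q →
      Nat.card ↥(Cfsg.isometryGroup (ZMod 2) ⇑geo1.R) = Nat.card ↥(Cfsg.isometryGroup (ZMod 2) q) := by
    rintro q rfl; rfl
  rw [gen _ (funext (plusQF_apply 4)), h]
  simp [Finset.prod_range_succ]

theorem card_K0 : Nat.card ↥K0 = 174182400 := by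
  rw [Nat.card_congr K0equiv.toEquiv]
  have h := Subgroup.card_mul_index Wsub
  rw [Wsub_index, card_TT0] at h
  omega

theorem card_CS : Nat.card ↥CS = 1045094400 := by
  have h := Subgroup.card_mul_index K0
  rw [Subgroup.index_ker, MonoidHom.range_eq_top.2 cperm_surjective, Subgroup.card_top, Nat.card_perm,
    Nat.card_fin, card_K0] at h
  rw [← h]
  rfl

theorem fix_root {k : G22} (hk : k ∈ CS) (hc : ∀ w ∈ K0, k * (w : G22) = (w : G22) * k) :
    pRep k (ptF (croot 0)) = ptF (croot 0) := by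
  obtain ⟨i, hi⟩ := CS_maps hk (root_pt 0)
  set u := pRep k (ptF (croot 0)) with hu
  have hwit := wit_check
  have hfix : ∀ p ∈ oneWit, act [p.1, p.2] (u : ℕ) = u := by
    intro p hp
    have h := List.all_eq_true.1 hwit.1 p hp
    simp only [Bool.and_eq_true, List.contains_iff_mem] at h
    obtain ⟨⟨h1, h2⟩, h3⟩ := h
    have hmem : (⟨tr (ptF p.1), tr_mem_CS h1⟩ * ⟨tr (ptF p.2), tr_mem_CS h2⟩ : ↥CS) ∈ K0 := by
      rw [MonoidHom.mem_ker, map_mul, cperm_tr h1, cperm_tr h2]; exact Equiv.swap_mul_self _ _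
    have e := hc _ hmem
    have e' : k * el [p.1, p.2] = el [p.1, p.2] * k := by
      rw [el_cons, el_singleton]; exact e
    have h4 : pRep (el [p.1, p.2]) (ptF (croot 0)) = ptF (croot 0) := Fin.ext (by
      rw [pRep_el, ptF_val' (comp_lt (root_mem 0)).1]; exact Nat.eq_of_beq_eq_true h3)
    have h5 : pRep (el [p.1, p.2]) u = u := by
      rw [hu, ← Equiv.Perm.mul_apply, ← map_mul, ← e', map_mul, Equiv.Perm.mul_apply, h4]
    rw [← pRep_el, h5]
  have h := List.all_eq_true.1 (List.all_eq_true.1 hwit.2 i (List.mem_finRange _)) _ hi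
  simp only [Bool.or_eq_true, List.any_eq_true] at h
  rcases h with h | ⟨p, hp, h⟩
  · exact Fin.ext ((Nat.eq_of_beq_eq_true h).trans (ptF_val' (comp_lt (root_mem 0)).1).symm)
  · rw [hfix p hp, Nat.beq_refl] at h
    simp at h

theorem tr_fix (z : Fin 3510) : pRep (tr z) z = z := by
  apply tr_injective
  rw [← FischerU.conj_tr, mul_inv_cancel_right]

theorem eq_one_of_centralizes {k : G22} (hk : k ∈ CS) (hc : ∀ w ∈ K0, k * (w : G22) = (w : G22) * k) : k = 1 := by
  refine rigid rigid1_check fun s hs => ?_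
  obtain ⟨t, ht, e⟩ := reach 0 (z := s) hs
  have hr := fix_root hk hc
  have fin : ∀ w : ↥CS, w ∈ K0 → pRep (w : G22) (ptF (croot 0)) = ptF s → pRep k (ptF s) = ptF s := by
    intro w hw hwr
    conv_lhs => rw [← hwr, ← Equiv.Perm.mul_apply, ← map_mul, hc w hw, map_mul, Equiv.Perm.mul_apply, hr]
    exact hwr
  rcases TT_cperm (g := ⟨t, TT_le_CS 0 ht⟩) ht with e' | e'
  · exact fin ⟨t, TT_le_CS 0 ht⟩ e' e
  · refine fin (⟨t, TT_le_CS 0 ht⟩ * ⟨tr (ptF (croot 0)), tr_mem_CS (root_mem 0)⟩) ?_ ?_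
    · rw [MonoidHom.mem_ker, map_mul, e', cperm_tr (root_mem 0)]; exact Equiv.swap_mul_self _ _
    · rw [Subgroup.coe_mul, map_mul, Equiv.Perm.mul_apply, tr_fix, e]

theorem center_K0 : Subgroup.center ↥K0 = ⊥ :=
  (Subgroup.eq_bot_iff_forall _).2 fun z hz => by
    refine Subtype.ext (Subtype.ext ?_)
    exact eq_one_of_centralizes (z : ↥CS).2 fun w hw =>
      (congrArg (fun x : ↥K0 => ((x : ↥CS) : G22)) (Subgroup.mem_center_iff.1 hz ⟨w, hw⟩)).symm

theorem card_aut_K0 : Nat.card (MulAut ↥K0) = 1045094400 := by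
  obtain ⟨e⟩ := K0_omega
  haveI := finite_G22
  have hcz : Subgroup.center ↥(Cfsg.Omega (ZMod 2) (Cfsg.quadFormPlus 4 (ZMod 2))) = ⊥ := by
    refine (Subgroup.eq_bot_iff_forall _).2 fun x hx => ?_
    have hz : e.symm x ∈ Subgroup.center ↥K0 := Subgroup.mem_center_iff.2 fun y => e.injective (by
      rw [map_mul, map_mul, e.apply_symm_apply]; exact Subgroup.mem_center_iff.1 hx (e y))
    rw [center_K0, Subgroup.mem_bot, MulEquiv.map_eq_one_iff] at hz
    exact hz
  let ε : Cfsg.POmega (ZMod 2) (Cfsg.quadFormPlus 4 (ZMod 2)) ≃* ↥K0 :=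
    ((QuotientGroup.quotientMulEquivOfEq hcz).trans QuotientGroup.quotientBot).trans e.symm
  have hout := POPlus.out_two (F := ZMod 2) (f := 1) (m := 4) le_rfl (by rw [ZMod.card, pow_one]) le_rfl
  rw [if_pos rfl] at hout
  obtain ⟨θ⟩ := hout
  have hH : Nat.card (Cfsg.POmega (ZMod 2) (Cfsg.quadFormPlus 4 (ZMod 2))) = 174182400 := by
    rw [Nat.card_congr ε.toEquiv, card_K0]
  haveI : Finite (Cfsg.POmega (ZMod 2) (Cfsg.quadFormPlus 4 (ZMod 2))) :=
    Finite.of_equiv _ ε.symm.toEquiv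
  rw [← Nat.card_congr (MulAut.congr ε).toEquiv, Subgroup.card_eq_card_quotient_mul_card_subgroup
    (Cfsg.Inn (Cfsg.POmega (ZMod 2) (Cfsg.quadFormPlus 4 (ZMod 2))))]
  have hinn : Nat.card ↥(Cfsg.Inn (Cfsg.POmega (ZMod 2) (Cfsg.quadFormPlus 4 (ZMod 2)))) = 174182400 := by
    rw [← hH]
    refine (Nat.card_congr (MonoidHom.ofInjective (f := MulAut.conj) ?_).toEquiv).symm
    rw [injective_iff_map_eq_one]
    intro x hx
    have hxz : x ∈ Subgroup.center (Cfsg.POmega (ZMod 2) (Cfsg.quadFormPlus 4 (ZMod 2))) :=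
      Subgroup.mem_center_iff.2 fun y => by
        have h1 := DFunLike.congr_fun hx y
        change x * y * x⁻¹ = y at h1
        exact (mul_inv_eq_iff_eq_mul.1 h1).symm
    have hz : ε x ∈ Subgroup.center ↥K0 := Subgroup.mem_center_iff.2 fun y => by
      obtain ⟨y, rfl⟩ := ε.surjective y
      rw [← map_mul, ← map_mul, Subgroup.mem_center_iff.1 hxz y]
    rw [center_K0, Subgroup.mem_bot, MulEquiv.map_eq_one_iff] at hz
    exact hz
  rw [hinn, Nat.card_congr θ.toEquiv, Nat.card_prod, Nat.card_perm, Nat.card_fin,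
    Nat.card_congr Multiplicative.toAdd, Nat.card_zmod]
  rfl

theorem CS_iso : Nonempty (↥CS ≃* MulAut ↥(Cfsg.Omega (ZMod 2) (Cfsg.quadFormPlus 4 (ZMod 2)))) := by
  haveI := finite_G22
  obtain ⟨e⟩ := K0_omega
  have hf : Function.Injective (MulAut.conjNormal : ↥CS →* MulAut ↥K0) := by
    rw [injective_iff_map_eq_one]
    intro k hk
    refine Subtype.ext (eq_one_of_centralizes k.2 fun w hw => ?_)
    have h1 := congrArg (fun x : ↥K0 => ((x : ↥CS) : G22)) (DFunLike.congr_fun hk ⟨w, hw⟩)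
    simp only [MulAut.conjNormal_apply, MulAut.one_apply, Subgroup.coe_mul, Subgroup.coe_inv] at h1
    exact mul_inv_eq_iff_eq_mul.1 h1
  have hb : Function.Bijective (MulAut.conjNormal : ↥CS →* MulAut ↥K0) := by
    haveI : Finite (MulAut ↥K0) := Nat.finite_of_card_ne_zero (by rw [card_aut_K0]; norm_num)
    exact (Nat.bijective_iff_injective_and_card _).2 ⟨hf, by rw [card_CS, card_aut_K0]⟩
  exact ⟨(MulEquiv.ofBijective _ hb).trans (MulAut.congr e)⟩

end Cfsg.Agent.SporB.FiOutInv
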