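import Cfsg.Agent.SporB.FiOutInv.Base
import Cfsg.Agent.OrthGen.MatrixForm
import Cfsg.Prelude.Def_Classical

/-! Labelling of sets of transpositions by non-singular vectors of quadratic spaces over the field with two
elements. -/

set_option autoImplicit false
set_option maxRecDepth 100000

namespace Cfsg.Agent.SporB.FiOutInv

open Cfsg.Agent.CosetCert Cfsg.Agent.SporB.FischerU Cfsg.Agent.SporB.FiPair
open Cfsg.Agent.Classical QuadraticMap Matrix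

local notation "G22" => Cfsg.Spor.Fi22

/-- A coded quadratic space with labelled points. -/
structure Geo (ι : Type) [Fintype ι] [DecidableEq ι] where
  /-- The form. -/
  R : QuadraticForm (ZMod 2) (ι → ZMod 2)
  /-- The position of a coordinate. -/
  pos : ι → ℕ
  /-- The dimension. -/
  dim : ℕ
  /-- The points. -/
  pts : List ℕ
  /-- The labels of the points. -/
  lab : ℕ → ℕ
  /-- The form on codes. -/
  qN : ℕ → ℕ
  /-- The seed points, one for each coordinate. -/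
  seed : ι → ℕ
  /-- The inverse of the matrix of seed labels, by columns. -/
  seedInv : ι → ℕ
  /-- Generating points. -/
  gens : List ℕ
  /-- Points as images of earlier points under generating transpositions. -/
  tree : List (ℕ × ℕ × ℕ)
  /-- Points as images of earlier points under earlier transpositions. -/
  der : List (ℕ × ℕ × ℕ)

variable {ι : Type} [Fintype ι] [DecidableEq ι] (Γ : Geo ι)

/-- The vector of a code. -/
def Geo.dec (n : ℕ) : ι → ZMod 2 := fun i => if n.testBit (Γ.pos i) then 1 else 0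

theorem Geo.dec_xor (m n : ℕ) : Γ.dec (m ^^^ n) = Γ.dec m + Γ.dec n := by
  funext i
  simp only [Geo.dec, Pi.add_apply, Nat.testBit_xor]
  cases m.testBit (Γ.pos i) <;> cases n.testBit (Γ.pos i) <;> decide

theorem Geo.dec_zero : Γ.dec 0 = 0 := by funext i; simp [Geo.dec]

/-- The polar form on codes. -/
def Geo.polN (u n : ℕ) : ℕ := (Γ.qN (u ^^^ n) + Γ.qN u + Γ.qN n) % 2

/-- The reflection on codes. -/
def Geo.rflN (u n : ℕ) : ℕ := if Γ.polN u n = 1 then n ^^^ u else n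

/-- The standing facts. -/
structure Geo.OK : Prop where
  q : ∀ n, n < 2 ^ Γ.dim → Γ.R (Γ.dec n) = (Γ.qN n : ZMod 2)
  pos : ∀ i, Γ.pos i < Γ.dim
  seedMem : ∀ i, Γ.seed i ∈ Γ.pts
  seedInv : ∀ i j, ∑ k, Γ.dec (Γ.lab (Γ.seed k)) i * Γ.dec (Γ.seedInv j) k = if i = j then 1 else 0
  pts : ∀ z ∈ Γ.pts, z < 3510 ∧ Γ.lab z < 2 ^ Γ.dim ∧ Γ.qN (Γ.lab z) % 2 = 1

/-- The isometry group. -/
abbrev Geo.O : Subgroup (GL ι (ZMod 2)) := Cfsg.isometryGroup (ZMod 2) ⇑Γ.R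

/-- The linear action. -/
def gv (M : GL ι (ZMod 2)) (v : ι → ZMod 2) : ι → ZMod 2 := (M : Matrix ι ι (ZMod 2)) *ᵥ v

theorem gv_mul (M N : GL ι (ZMod 2)) (v : ι → ZMod 2) : gv (M * N) v = gv M (gv N v) := by
  simp [gv, Matrix.mulVec_mulVec]

theorem gv_one (v : ι → ZMod 2) : gv 1 v = v := by simp [gv]

theorem gv_inv (M : GL ι (ZMod 2)) (v : ι → ZMod 2) : gv M⁻¹ (gv M v) = v := by
  rw [← gv_mul, inv_mul_cancel, gv_one]

/-- An element moves the points as an isometry moves the labels. -/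
def Geo.Rel (g : G22) (M : ↥Γ.O) : Prop :=
  ∀ z : Fin 3510, (z : ℕ) ∈ Γ.pts → ((pRep g z : Fin 3510) : ℕ) ∈ Γ.pts ∧
    gv (M : GL ι (ZMod 2)) (Γ.dec (Γ.lab z)) = Γ.dec (Γ.lab (pRep g z : ℕ))

theorem Geo.Rel.one : Γ.Rel 1 1 := fun z hz => by simp [gv_one, hz]

variable {Γ} in
theorem Geo.Rel.mul {g h : G22} {M N : ↥Γ.O} (hg : Γ.Rel g M) (hh : Γ.Rel h N) :
    Γ.Rel (g * h) (M * N) := fun z hz => by
  obtain ⟨h1, e1⟩ := hh z hz
  obtain ⟨h2, e2⟩ := hg _ h1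
  rw [map_mul, Equiv.Perm.mul_apply, Subgroup.coe_mul, gv_mul, e1, e2]
  exact ⟨h2, rfl⟩

variable {Γ} in
theorem Geo.Rel.inv {g : G22} {M : ↥Γ.O} (h : Γ.Rel g M) : Γ.Rel g⁻¹ M⁻¹ := fun z hz => by
  classical
  let S : Finset (Fin 3510) := Finset.univ.filter fun x => (x : ℕ) ∈ Γ.pts
  have hmap : S.image (pRep g) ⊆ S := fun x hx => by
    obtain ⟨y, hy, rfl⟩ := Finset.mem_image.1 hx
    exact Finset.mem_filter.2 ⟨Finset.mem_univ _, (h y (Finset.mem_filter.1 hy).2).1⟩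
  have he : S.image (pRep g) = S :=
    Finset.eq_of_subset_of_card_le hmap (Finset.card_image_of_injective _ (pRep g).injective).ge
  obtain ⟨y, hy, hyz⟩ := Finset.mem_image.1 (he.ge (Finset.mem_filter.2 ⟨Finset.mem_univ _, hz⟩))
  have hy' := (Finset.mem_filter.1 hy).2
  have e := (h y hy').2
  rw [hyz] at e
  have hinv : pRep g⁻¹ z = y := by
    rw [map_inv, ← hyz, Equiv.Perm.inv_def, Equiv.symm_apply_apply]
  rw [hinv]
  exact ⟨hy', by rw [← e, Subgroup.coe_inv, gv_inv]⟩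

variable {Γ}

variable (Γ) in
/-- The matrix of seed labels. -/
def Geo.seedM : Matrix ι ι (ZMod 2) := fun i j => Γ.dec (Γ.lab (Γ.seed j)) i

variable (Γ) in
/-- Its inverse. -/
def Geo.seedN : Matrix ι ι (ZMod 2) := fun i j => Γ.dec (Γ.seedInv j) i

theorem Geo.seed_mul (hΓ : Γ.OK) : Γ.seedM * Γ.seedN = 1 := by
  ext i j
  rw [Matrix.mul_apply, Matrix.one_apply]
  exact hΓ.seedInv i j

theorem Geo.mul_seed (hΓ : Γ.OK) : Γ.seedN * Γ.seedM = 1 := mul_eq_one_comm.1 (Geo.seed_mul hΓ)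

theorem Geo.mulVec_seed (A : Matrix ι ι (ZMod 2)) (i j : ι) :
    (A *ᵥ Γ.dec (Γ.lab (Γ.seed j))) i = (A * Γ.seedM) i j := by
  rw [Matrix.mul_apply]
  rfl

theorem Geo.ext_labels (hΓ : Γ.OK) {M N : GL ι (ZMod 2)}
    (h : ∀ z ∈ Γ.pts, gv M (Γ.dec (Γ.lab z)) = gv N (Γ.dec (Γ.lab z))) : M = N := by
  have e : (M : Matrix ι ι (ZMod 2)) * Γ.seedM = (N : Matrix ι ι (ZMod 2)) * Γ.seedM := by
    ext i j
    rw [← Geo.mulVec_seed, ← Geo.mulVec_seed]
    exact congrFun (h _ (hΓ.seedMem j)) i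
  apply Units.ext
  rw [← mul_one (M : Matrix ι ι (ZMod 2)), ← Geo.seed_mul hΓ, ← mul_assoc, e, mul_assoc, Geo.seed_mul hΓ, mul_one]

theorem Geo.Rel.unique (hΓ : Γ.OK) {g : G22} {M N : ↥Γ.O} (hM : Γ.Rel g M) (hN : Γ.Rel g N) : M = N := by
  refine Subtype.ext (Geo.ext_labels hΓ fun z hz => ?_)
  have h1 := (hM ⟨z, (hΓ.pts z hz).1⟩ hz).2
  have h2 := (hN ⟨z, (hΓ.pts z hz).1⟩ hz).2
  exact h1.trans h2.symm

variable (Γ) in
/-- The elements inducing an isometry. -/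
noncomputable def Geo.dom : Subgroup G22 where
  carrier := {g | ∃ M, Γ.Rel g M}
  one_mem' := ⟨1, Geo.Rel.one Γ⟩
  mul_mem' := fun {a b} ⟨M, ha⟩ ⟨N, hb⟩ => ⟨M * N, ha.mul hb⟩
  inv_mem' := fun {a} ⟨M, ha⟩ => ⟨M⁻¹, ha.inv⟩

/-- The induced isometry. -/
noncomputable def Geo.toO (hΓ : Γ.OK) : ↥Γ.dom →* ↥Γ.O where
  toFun g := g.2.choose
  map_one' := Geo.Rel.unique hΓ (1 : ↥Γ.dom).2.choose_spec (Geo.Rel.one Γ)
  map_mul' a b := Geo.Rel.unique hΓ (a * b).2.choose_spec (a.2.choose_spec.mul b.2.choose_spec)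

theorem Geo.toO_rel (hΓ : Γ.OK) (g : ↥Γ.dom) : Γ.Rel g (Geo.toO hΓ g) := g.2.choose_spec

theorem Geo.toO_eq (hΓ : Γ.OK) {g : ↥Γ.dom} {M : ↥Γ.O} (h : Γ.Rel g M) : Geo.toO hΓ g = M :=
  Geo.Rel.unique hΓ (Geo.toO_rel hΓ g) h

theorem Geo.R_lab (hΓ : Γ.OK) {z : ℕ} (hz : z ∈ Γ.pts) : Γ.R (Γ.dec (Γ.lab z)) ≠ 0 := by
  obtain ⟨-, h1, h2⟩ := hΓ.pts z hz
  rw [hΓ.q _ h1]
  intro h0
  have := (CharP.cast_eq_zero_iff (ZMod 2) 2 (Γ.qN (Γ.lab z))).1 h0
  omega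

variable (Γ) in
/-- The reflection in a vector. -/
noncomputable def Geo.rfl' (x : ι → ZMod 2) (hx : Γ.R x ≠ 0) : ↥Γ.O := Refl.reflectionIso Γ.R x hx

theorem Geo.gv_rfl {x : ι → ZMod 2} (hx : Γ.R x ≠ 0) (v : ι → ZMod 2) :
    gv (Γ.rfl' x hx : GL ι (ZMod 2)) v = v + polar Γ.R x v • x := by
  rw [gv, ← OrthGen.matEquiv_apply Γ.R (Γ.rfl' x hx) v, Geo.rfl', OrthGen.matEquiv_reflectionIso,
    reflQ_apply]
  have h1 : ∀ a : ZMod 2, a ≠ 0 → a = 1 := by decide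
  rw [h1 _ hx, inv_one, one_mul, ZModModule.sub_eq_add]

theorem Geo.rfl_dec (hΓ : Γ.OK) {u n : ℕ} (hu : u < 2 ^ Γ.dim) (hn : n < 2 ^ Γ.dim) (hx : Γ.R (Γ.dec u) ≠ 0) :
    gv (Γ.rfl' _ hx : GL ι (ZMod 2)) (Γ.dec n) = Γ.dec (Γ.rflN u n) := by
  have hp : polar Γ.R (Γ.dec u) (Γ.dec n) = (Γ.polN u n : ZMod 2) := by
    rw [polar, ← Geo.dec_xor, hΓ.q _ (Nat.xor_lt_two_pow hu hn), hΓ.q _ hu, hΓ.q _ hn, Geo.polN,
      ZMod.natCast_mod, Nat.cast_add, Nat.cast_add, ZModModule.sub_eq_add, ZModModule.sub_eq_add]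
  rw [Geo.gv_rfl, hp]
  unfold Geo.rflN
  have hlt : Γ.polN u n < 2 := Nat.mod_lt _ two_pos
  split_ifs with h
  · rw [h, Nat.cast_one, one_smul, Geo.dec_xor]
  · have h0 : Γ.polN u n = 0 := by omega
    rw [h0, Nat.cast_zero, zero_smul, add_zero]

variable (Γ) in
/-- A transposition reflects the labels. -/
noncomputable def Geo.rflB (y : ℕ) : Bool :=
  Γ.pts.all fun z => Γ.pts.contains (mv y z) && Nat.beq (Γ.lab (mv y z)) (Γ.rflN (Γ.lab y) (Γ.lab z))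

theorem Geo.rel_of_rflB (hΓ : Γ.OK) {y : ℕ} (hy : y ∈ Γ.pts) (h : Γ.rflB y = true) :
    Γ.Rel (tr (ptF y)) (Γ.rfl' _ (Geo.R_lab hΓ hy)) := fun z hz => by
  obtain ⟨hy3, hy1, -⟩ := hΓ.pts y hy
  simp only [Geo.rflB, List.all_eq_true, Bool.and_eq_true] at h
  obtain ⟨h1, h2⟩ := h z hz
  have hz1 : Γ.lab z < 2 ^ Γ.dim := (hΓ.pts z hz).2.1
  rw [FiPair.pRep_tr, ptF_val' hy3]
  refine ⟨by simpa using h1, ?_⟩
  rw [Geo.rfl_dec hΓ hy1 hz1, Nat.eq_of_beq_eq_true h2]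

theorem Geo.Rel.conj_tr (hΓ : Γ.OK) {g : G22} {M : ↥Γ.O} (hg : Γ.Rel g M) {y : Fin 3510}
    (hy : (y : ℕ) ∈ Γ.pts) (h : Γ.Rel (tr y) (Γ.rfl' _ (Geo.R_lab hΓ hy))) :
    Γ.Rel (tr (pRep g y)) (Γ.rfl' _ (Geo.R_lab hΓ (hg y hy).1)) := by
  have h1 := (hg.mul h).mul hg.inv
  rw [FischerU.conj_tr] at h1
  have e : M * Γ.rfl' _ (Geo.R_lab hΓ hy) * M⁻¹ = Γ.rfl' _ (Geo.R_lab hΓ (hg y hy).1) := by
    refine Subtype.ext (Geo.ext_labels hΓ fun z _ => ?_)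
    generalize Γ.dec (Γ.lab z) = v
    simp only [Subgroup.coe_mul, Subgroup.coe_inv, gv_mul]
    rw [Geo.gv_rfl, Geo.gv_rfl]
    have hinv : ∀ w, gv (M : GL ι (ZMod 2)) (gv (M : GL ι (ZMod 2))⁻¹ w) = w := fun w => by
      rw [← gv_mul, mul_inv_cancel, gv_one]
    have hR : ∀ w, Γ.R (gv (M : GL ι (ZMod 2)) w) = Γ.R w := fun w => M.2 w w
    have hpol : ∀ a w, polar Γ.R (gv (M : GL ι (ZMod 2)) a) (gv (M : GL ι (ZMod 2)) w) = polar Γ.R a w := by
      intro a w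
      simp only [polar]
      rw [← hR (a + w)]
      simp only [gv, Matrix.mulVec_add]
      rw [← hR a, ← hR w]
      rfl
    have hlin : ∀ (c : ZMod 2) (a w : ι → ZMod 2),
        gv (M : GL ι (ZMod 2)) (w + c • a) = gv (M : GL ι (ZMod 2)) w + c • gv (M : GL ι (ZMod 2)) a :=
      fun c a w => by simp only [gv, Matrix.mulVec_add, Matrix.mulVec_smul]
    rw [hlin, hinv, (hg y hy).2.symm]
    conv_rhs => rw [← hinv v, hpol]
    rw [hinv]
  rwa [e] at h1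

/-! ### The group of the points -/

/-- An ordered list of images. -/
noncomputable def ordB (par : ℕ → ℕ → Bool) : List (ℕ × ℕ × ℕ) → List ℕ → Bool
  | [], _ => true
  | (z, y, x) :: l, known => par y x && known.contains y && known.contains x && Nat.beq (mv y x) z &&
      ordB par l (z :: known)

theorem ordB_induction {par : ℕ → ℕ → Bool} {P : ℕ → Prop} : ∀ (l : List (ℕ × ℕ × ℕ)) (known : List ℕ),
    ordB par l known = true → (∀ z ∈ known, P z) →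
    (∀ y x, par y x = true → P y → P x → P (mv y x)) →
    ∀ z ∈ known ++ l.map Prod.fst, P z
  | [], known, _, hk, _, z, hz => hk z (by simpa using hz)
  | (z₀, y, x) :: l, known, h, hk, hstep, z, hz => by
    simp only [ordB, Bool.and_eq_true] at h
    obtain ⟨⟨⟨⟨hp, hy⟩, hx⟩, he⟩, hl⟩ := h
    have h0 : P z₀ := by
      rw [← Nat.eq_of_beq_eq_true he]
      exact hstep y x hp (hk y (by simpa using hy)) (hk x (by simpa using hx))
    refine ordB_induction l (z₀ :: known) hl (fun u hu => ?_) hstep z ?_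
    · rcases List.mem_cons.1 hu with rfl | hu
      · exact h0
      · exact hk u hu
    · rcases List.mem_append.1 hz with hz | hz
      · exact List.mem_append_left _ (List.mem_cons_of_mem _ hz)
      · rcases List.mem_cons.1 hz with rfl | hz
        · exact List.mem_append_left _ List.mem_cons_self
        · exact List.mem_append_right _ hz

variable (Γ) in
/-- The checks of the generation. -/
noncomputable def Geo.genB : Bool :=
  Γ.gens.all (fun y => Γ.pts.contains y && Γ.rflB y) &&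
    ordB (fun y _ => Γ.gens.contains y) Γ.tree Γ.gens &&
    Γ.pts.all (fun z => (Γ.gens ++ Γ.tree.map Prod.fst).contains z)

variable (Γ) in
/-- The group generated by the transpositions of the generating points. -/
noncomputable def Geo.T : Subgroup G22 := Subgroup.closure {g | ∃ y ∈ Γ.gens, g = tr (ptF y)}

theorem Geo.tr_spec (hΓ : Γ.OK) (hg : Γ.genB = true) {z : ℕ} (hz : z ∈ Γ.pts) :
    tr (ptF z) ∈ Γ.T ∧ Γ.Rel (tr (ptF z)) (Γ.rfl' _ (Geo.R_lab hΓ hz)) := by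
  simp only [Geo.genB, Bool.and_eq_true, List.all_eq_true] at hg
  obtain ⟨⟨h1, h2⟩, h3⟩ := hg
  have key : ∀ z ∈ Γ.gens ++ Γ.tree.map Prod.fst, ∃ hz : z ∈ Γ.pts,
      tr (ptF z) ∈ Γ.T ∧ Γ.Rel (tr (ptF z)) (Γ.rfl' _ (Geo.R_lab hΓ hz)) := by
    have base : ∀ y ∈ Γ.gens, ∃ hy : y ∈ Γ.pts,
        tr (ptF y) ∈ Γ.T ∧ Γ.Rel (tr (ptF y)) (Γ.rfl' _ (Geo.R_lab hΓ hy)) := fun y hy => by
      obtain ⟨h, h'⟩ := h1 y hy
      have hp : y ∈ Γ.pts := by simpa using h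
      exact ⟨hp, Subgroup.subset_closure ⟨y, hy, rfl⟩, Geo.rel_of_rflB hΓ hp h'⟩
    -- the first component of the parameters is a generating point
    refine fun z hz => ordB_induction Γ.tree Γ.gens h2 base ?_ z hz
    rintro y x hy - ⟨hx, hxT, hxR⟩
    have hy' : y ∈ Γ.gens := by simpa using hy
    obtain ⟨hyp, hyT, hyR⟩ := base y hy'
    have hyv := ptF_val' (hΓ.pts y hyp).1
    have hxv := ptF_val' (hΓ.pts x hx).1
    have him : ((pRep (tr (ptF y)) (ptF x) : Fin 3510) : ℕ) = mv y x := by rw [FiPair.pRep_tr, hyv, hxv]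
    have hxp : ((ptF x : Fin 3510) : ℕ) ∈ Γ.pts := by rw [hxv]; exact hx
    have hm : mv y x ∈ Γ.pts := him ▸ (hyR _ hxp).1
    have e : ptF (mv y x) = pRep (tr (ptF y)) (ptF x) := by rw [← him, ptF_self]
    refine ⟨hm, ?_, ?_⟩
    · rw [e, ← FischerU.conj_tr]
      exact mul_mem (mul_mem hyT hxT) (inv_mem hyT)
    · have h5 := hyR.conj_tr hΓ hxp (by simpa [hxv] using hxR)
      simp only [him] at h5
      rwa [e]
  obtain ⟨_, h⟩ := key z (by simpa using h3 z hz)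
  exact h

theorem Geo.T_le_dom (hΓ : Γ.OK) (hg : Γ.genB = true) : Γ.T ≤ Γ.dom := by
  rw [Geo.T, Subgroup.closure_le]
  rintro g ⟨y, hy, rfl⟩
  have : y ∈ Γ.pts := by
    have h := hg
    simp only [Geo.genB, Bool.and_eq_true, List.all_eq_true] at h
    simpa using (h.1.1 y hy).1
  exact ⟨_, (Geo.tr_spec hΓ hg this).2⟩

/-- Every non-singular vector is a label. -/
noncomputable def Geo.covB (Γ : Geo ι) : Bool :=
  (List.range (2 ^ Γ.dim)).all fun n => Nat.beq (Γ.qN n % 2) 0 || Γ.pts.any fun z => Nat.beq (Γ.lab z) n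

theorem Geo.map_T_top (hΓ : Γ.OK) (hg : Γ.genB = true) (hcov : Γ.covB = true)
    (hdec : ∀ v, ∃ n < 2 ^ Γ.dim, Γ.dec n = v) (hB : BNondeg Γ.R) (hx4 : OrthGen.NotExceptional Γ.R)
    (M : ↥Γ.O) : ∃ g ∈ Γ.T, Γ.Rel g M := by
  have hM : OrthGen.matEquiv Γ.R M ∈ RQ Γ.R := by
    rw [OrthGen.RQ_eq_top hB hx4]; trivial
  let S : Subgroup (OQ Γ.R) :=
    { carrier := {k | ∃ g ∈ Γ.T, Γ.Rel g ((OrthGen.matEquiv Γ.R).symm k)}
      one_mem' := ⟨1, one_mem _, by rw [map_one]; exact Geo.Rel.one Γ⟩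
      mul_mem' := fun {a b} ⟨g, hg', ha⟩ ⟨h, hh', hb⟩ =>
        ⟨g * h, mul_mem hg' hh', by rw [map_mul]; exact ha.mul hb⟩
      inv_mem' := fun {a} ⟨g, hg', ha⟩ => ⟨g⁻¹, inv_mem hg', by rw [map_inv]; exact ha.inv⟩ }
  have hle : RQ Γ.R ≤ S := by
    rw [RQ, Subgroup.closure_le]
    rintro k ⟨x, hx, rfl⟩
    obtain ⟨n, hn, rfl⟩ := hdec x
    simp only [Geo.covB, List.all_eq_true, Bool.or_eq_true, List.any_eq_true] at hcov
    rcases hcov n (List.mem_range.2 hn) with h | ⟨z, hz, h⟩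
    · exfalso
      refine hx ?_
      rw [hΓ.q n hn]
      exact (CharP.cast_eq_zero_iff (ZMod 2) 2 (Γ.qN n)).2 (Nat.dvd_of_mod_eq_zero (Nat.eq_of_beq_eq_true h))
    · have hz' : Γ.lab z = n := Nat.eq_of_beq_eq_true h
      subst hz'
      refine ⟨tr (ptF z), (Geo.tr_spec hΓ hg hz).1, ?_⟩
      rw [← OrthGen.matEquiv_reflectionIso Γ.R _ hx, MulEquiv.symm_apply_apply]
      exact (Geo.tr_spec hΓ hg hz).2
  obtain ⟨g, hgT, hR⟩ := hle hM
  rw [MulEquiv.symm_apply_apply] at hR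
  exact ⟨g, hgT, hR⟩

end Cfsg.Agent.SporB.FiOutInv
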