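import Cfsg.Agent.SporB.FiOutInv.GeoStab

/-! Reaching points, equal labels, orders. -/

set_option autoImplicit false
set_option maxRecDepth 100000

namespace Cfsg.Agent.SporB.FiOutInv

open Cfsg.Agent.CosetCert Cfsg.Agent.SporB.FischerU Cfsg.Agent.SporB.FiPair
open Cfsg.Agent.Classical QuadraticMap Matrix

local notation "G22" => Cfsg.Spor.Fi22

/-- The value at a key. -/
def lookN (l : List (ℕ × ℕ)) (z : ℕ) : ℕ := ((l.find? fun p => Nat.beq p.1 z).getD (0, 0)).2

/-- A tree of images under generating transpositions. -/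
noncomputable def treeB (gens : List ℕ) : List (ℕ × ℕ × ℕ) → List ℕ → Bool
  | [], _ => true
  | (z, y, x) :: l, known => gens.contains y && known.contains x && Nat.beq (mv y x) z && treeB gens l (z :: known)

/-- A point of an orbit, by images under generating transpositions. -/
theorem ord_reach {gens : List ℕ} (hlt : ∀ y ∈ gens, y < 3510) {r : ℕ} (hr : r < 3510) :
    ∀ (tree : List (ℕ × ℕ × ℕ)) (known : List ℕ), treeB gens tree known = true →
      (∀ z ∈ known, z < 3510 ∧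
        ∃ t ∈ Subgroup.closure {g | ∃ y ∈ gens, g = tr (ptF y)}, pRep t (ptF r) = ptF z) →
      ∀ z ∈ known ++ tree.map Prod.fst, z < 3510 ∧
        ∃ t ∈ Subgroup.closure {g | ∃ y ∈ gens, g = tr (ptF y)}, pRep t (ptF r) = ptF z
  | [], known, _, hk, z, hz => hk z (by simpa using hz)
  | (z₀, y, x) :: l, known, h, hk, z, hz => by
    simp only [treeB, Bool.and_eq_true] at h
    obtain ⟨⟨⟨hy, hx⟩, he⟩, hl⟩ := h
    have hy' : y ∈ gens := by simpa using hy
    obtain ⟨hx3, t, ht, e⟩ := hk x (by simpa using hx)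
    have hm : z₀ = ((pRep (tr (ptF y)) (ptF x) : Fin 3510) : ℕ) := by
      rw [FiPair.pRep_tr, ptF_val' (hlt y hy'), ptF_val' hx3, Nat.eq_of_beq_eq_true he]
    refine ord_reach hlt hr l (z₀ :: known) hl (fun u hu => ?_) z ?_
    · rcases List.mem_cons.1 hu with rfl | hu
      · refine ⟨hm ▸ Fin.isLt _, tr (ptF y) * t,
          mul_mem (Subgroup.subset_closure (show tr (ptF y) ∈ {g | ∃ y ∈ gens, g = tr (ptF y)} from ⟨y, hy', rfl⟩)) ht, ?_⟩
        rw [map_mul, Equiv.Perm.mul_apply, e, hm, ptF_self]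
      · exact hk u hu
    · rcases List.mem_append.1 hz with hz | hz
      · exact List.mem_append_left _ (List.mem_cons_of_mem _ hz)
      · rcases List.mem_cons.1 hz with rfl | hz
        · exact List.mem_append_left _ List.mem_cons_self
        · exact List.mem_append_right _ hz

/-- The root is reached. -/
theorem root_reach (gens : List ℕ) {r : ℕ} (hr : r < 3510) : ∀ z ∈ [r], z < 3510 ∧
    ∃ t ∈ Subgroup.closure {g | ∃ y ∈ gens, g = tr (ptF y)}, pRep t (ptF r) = ptF z := fun z hz => by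
  obtain rfl : z = r := by simpa using hz
  exact ⟨hr, 1, one_mem _, by simp⟩

variable {ι : Type} [Fintype ι] [DecidableEq ι] {Γ : Geo ι}

/-- Points of equal labels go to points of equal labels. -/
theorem Geo.same_lab (hΓ : Γ.OK) (hg : Γ.genB = true) {roots : List ℕ} (hc : Γ.commB roots = true)
    (hr : Γ.Reach roots) (hB : BNondeg Γ.R) {g : G22}
    (hm : ∀ z : Fin 3510, (z : ℕ) ∈ Γ.pts → ((pRep g z : Fin 3510) : ℕ) ∈ Γ.pts)
    {u v : ℕ} (hu : u ∈ Γ.pts) (hv : v ∈ Γ.pts) (h : Γ.lab u = Γ.lab v) :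
    Γ.dec (Γ.lab ((pRep g (ptF u) : Fin 3510) : ℕ)) = Γ.dec (Γ.lab ((pRep g (ptF v) : Fin 3510) : ℕ)) := by
  classical
  have key : ∀ z ∈ Γ.pts,
      polar Γ.R (Γ.dec (Γ.lab ((pRep g (ptF u) : Fin 3510) : ℕ)) -
        Γ.dec (Γ.lab ((pRep g (ptF v) : Fin 3510) : ℕ))) (Γ.dec (Γ.lab z)) = 0 := by
    intro z hz
    obtain ⟨hu3, hu1, -⟩ := hΓ.pts u hu
    obtain ⟨hv3, hv1, -⟩ := hΓ.pts v hv
    have hgu := hm (ptF u) (by rwa [ptF_val' hu3])
    have hgv := hm (ptF v) (by rwa [ptF_val' hv3])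
    let S : Finset (Fin 3510) := Finset.univ.filter fun x => (x : ℕ) ∈ Γ.pts
    have hmap : S.image (pRep g) ⊆ S := fun x hx => by
      obtain ⟨y, hy, rfl⟩ := Finset.mem_image.1 hx
      exact Finset.mem_filter.2 ⟨Finset.mem_univ _, hm y (Finset.mem_filter.1 hy).2⟩
    have he : S.image (pRep g) = S :=
      Finset.eq_of_subset_of_card_le hmap (Finset.card_image_of_injective _ (pRep g).injective).ge
    have hz3 := (hΓ.pts z hz).1
    obtain ⟨w, hw, hwz⟩ := Finset.mem_image.1 (he.ge (Finset.mem_filter.2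
      ⟨Finset.mem_univ _, (show ((ptF z : Fin 3510) : ℕ) ∈ Γ.pts by rwa [ptF_val' hz3])⟩))
    have hw' := (Finset.mem_filter.1 hw).2
    have hiff : mv (pRep g (ptF u)) z = z ↔ mv (pRep g (ptF v)) z = z := by
      have h1 := mv_eq_iff g (ptF u) w
      have h2 := mv_eq_iff g (ptF v) w
      rw [hwz, ptF_val' hz3, ptF_val' hu3] at h1
      rw [hwz, ptF_val' hz3, ptF_val' hv3] at h2
      rw [h1, h2, Geo.mv_eq_iff_polN hΓ hg hc hr hu hw', Geo.mv_eq_iff_polN hΓ hg hc hr hv hw', h]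
    rw [Geo.mv_eq_iff_polN hΓ hg hc hr hgu hz, Geo.mv_eq_iff_polN hΓ hg hc hr hgv hz,
      Geo.polN_zero_iff hΓ (hΓ.pts _ hgu).2.1 (hΓ.pts z hz).2.1,
      Geo.polN_zero_iff hΓ (hΓ.pts _ hgv).2.1 (hΓ.pts z hz).2.1] at hiff
    rw [polar_sub_left]
    have h2 : ∀ a b : ZMod 2, (a = 0 ↔ b = 0) → a - b = 0 := by decide
    exact h2 _ _ hiff
  refine sub_eq_zero.1 (hB _ fun w => ?_)
  -- the seeds span
  set x := Γ.dec (Γ.lab ((pRep g (ptF u) : Fin 3510) : ℕ)) -
    Γ.dec (Γ.lab ((pRep g (ptF v) : Fin 3510) : ℕ)) with hx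
  have hl : ∀ j, Γ.R.polarBilin x (Γ.seedM *ᵥ Pi.single j 1) = 0 := fun j => by
    rw [Matrix.mulVec_single_one]
    exact key _ (hΓ.seedMem j)
  have e : w = Γ.seedM *ᵥ (Γ.seedN *ᵥ w) := by
    rw [Matrix.mulVec_mulVec, Geo.seed_mul hΓ, Matrix.one_mulVec]
  rw [e]
  have hz0 : (Γ.R.polarBilin x).comp (Matrix.mulVecLin Γ.seedM) = 0 :=
    (Pi.basisFun (ZMod 2) ι).ext fun j => by
      rw [Pi.basisFun_apply, LinearMap.comp_apply, Matrix.mulVecLin_apply, hl j, LinearMap.zero_apply]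
  exact LinearMap.congr_fun hz0 (Γ.seedN *ᵥ w)

end Cfsg.Agent.SporB.FiOutInv
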