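import Cfsg.Agent.SporB.FiOutInv.Geo

/-! Elements permuting labelled points act as isometries. -/

set_option autoImplicit false
set_option maxRecDepth 100000

namespace Cfsg.Agent.SporB.FiOutInv

open Cfsg.Agent.CosetCert Cfsg.Agent.SporB.FischerU Cfsg.Agent.SporB.FiPair
open Cfsg.Agent.Classical QuadraticMap Matrix

local notation "G22" => Cfsg.Spor.Fi22

variable {ι : Type} [Fintype ι] [DecidableEq ι] {Γ : Geo ι}

/-- Orthogonality of labels is commuting, at the representatives. -/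
noncomputable def Geo.commB (Γ : Geo ι) (roots : List ℕ) : Bool :=
  roots.all (fun r => Γ.pts.contains r &&
      Γ.pts.all fun z => !Nat.beq (Γ.polN (Γ.lab r) (Γ.lab z)) 0 || Nat.beq (mv r z) z) &&
    ordB (fun y _ => Γ.gens.contains y) Γ.tree Γ.gens

/-- The derivation of all points from the seeds. -/
noncomputable def Geo.derB (Γ : Geo ι) (seeds : List ℕ) : Bool :=
  ordB (fun y x => Γ.pts.contains y && Γ.pts.contains x && Nat.beq (Γ.polN (Γ.lab y) (Γ.lab x)) 1) Γ.der seeds &&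
    Γ.pts.all fun z => (seeds ++ Γ.der.map Prod.fst).contains z

variable (Γ) in
/-- Every point is reached from a representative. -/
def Geo.Reach (roots : List ℕ) : Prop :=
  ∀ z ∈ Γ.pts, ∃ t ∈ Γ.T, ∃ r ∈ roots, pRep t (ptF r) = ptF z

theorem Geo.polN_cast (hΓ : Γ.OK) {u n : ℕ} (hu : u < 2 ^ Γ.dim) (hn : n < 2 ^ Γ.dim) :
    polar Γ.R (Γ.dec u) (Γ.dec n) = (Γ.polN u n : ZMod 2) := by
  rw [polar, ← Geo.dec_xor, hΓ.q _ (Nat.xor_lt_two_pow hu hn), hΓ.q _ hu, hΓ.q _ hn, Geo.polN,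
    ZMod.natCast_mod, Nat.cast_add, Nat.cast_add, ZModModule.sub_eq_add, ZModModule.sub_eq_add]

theorem Geo.polN_zero_iff (hΓ : Γ.OK) {u n : ℕ} (hu : u < 2 ^ Γ.dim) (hn : n < 2 ^ Γ.dim) :
    Γ.polN u n = 0 ↔ polar Γ.R (Γ.dec u) (Γ.dec n) = 0 := by
  rw [Geo.polN_cast hΓ hu hn, CharP.cast_eq_zero_iff (ZMod 2) 2]
  have h : Γ.polN u n < 2 := Nat.mod_lt _ two_pos
  constructor
  · intro e; rw [e]; exact dvd_zero _
  · intro e; omega

/-- An isometry preserves the polar form. -/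
theorem Geo.polar_gv (M : ↥Γ.O) (a w : ι → ZMod 2) :
    polar Γ.R (gv (M : GL ι (ZMod 2)) a) (gv (M : GL ι (ZMod 2)) w) = polar Γ.R a w := by
  have hR : ∀ v, Γ.R (gv (M : GL ι (ZMod 2)) v) = Γ.R v := fun v => M.2 v v
  have e : gv (M : GL ι (ZMod 2)) (a + w) = gv (M : GL ι (ZMod 2)) a + gv (M : GL ι (ZMod 2)) w :=
    Matrix.mulVec_add _ _ _
  simp only [polar]
  rw [← e, hR, hR, hR]

theorem Geo.mv_eq_iff_polN (hΓ : Γ.OK) (hg : Γ.genB = true) {roots : List ℕ} (hc : Γ.commB roots = true)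
    (hr : Γ.Reach roots) {y x : ℕ} (hy : y ∈ Γ.pts) (hx : x ∈ Γ.pts) :
    mv y x = x ↔ Γ.polN (Γ.lab y) (Γ.lab x) = 0 := by
  obtain ⟨hy3, hy1, -⟩ := hΓ.pts y hy
  obtain ⟨hx3, hx1, -⟩ := hΓ.pts x hx
  constructor
  · intro h
    have h1 := ((Geo.tr_spec hΓ hg hy).2 (ptF x) (by rwa [ptF_val' hx3])).2
    rw [FiPair.pRep_tr, ptF_val' hy3, ptF_val' hx3, h, Geo.rfl_dec hΓ hy1 hx1, Geo.rflN] at h1
    by_contra hne
    have hlt : Γ.polN (Γ.lab y) (Γ.lab x) < 2 := Nat.mod_lt _ two_pos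
    rw [if_pos (by omega), Geo.dec_xor] at h1
    have h0 : Γ.dec (Γ.lab y) = 0 := by simpa using h1
    exact Geo.R_lab hΓ hy (by rw [h0, map_zero])
  · intro h
    obtain ⟨t, ht, r, hrr, he⟩ := hr y hy
    simp only [Geo.commB, Bool.and_eq_true, List.all_eq_true] at hc
    obtain ⟨hrp, hall⟩ := hc.1 r hrr
    have hrp' : r ∈ Γ.pts := by simpa using hrp
    obtain ⟨hr3, hr1, -⟩ := hΓ.pts r hrp'
    obtain ⟨M, hM⟩ := Geo.T_le_dom hΓ hg ht
    obtain ⟨hz, hze⟩ := hM.inv (ptF x) (by rwa [ptF_val' hx3])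
    set x' := pRep t⁻¹ (ptF x) with hx'
    obtain ⟨hz3, hz1, -⟩ := hΓ.pts _ hz
    have e1 := (hM (ptF r) (by rwa [ptF_val' hr3])).2
    rw [he, ptF_val' hy3, ptF_val' hr3] at e1
    have htx : pRep t x' = ptF x := by
      rw [hx', map_inv, Equiv.Perm.inv_def, Equiv.apply_symm_apply]
    have e2 := (hM x' hz).2
    rw [htx, ptF_val' hx3] at e2
    have hp : Γ.polN (Γ.lab r) (Γ.lab x') = 0 := by
      rw [Geo.polN_zero_iff hΓ hr1 hz1, ← Geo.polar_gv M, e1, e2, ← Geo.polN_zero_iff hΓ hy1 hx1, h]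
    have h2 := hall x' hz
    rw [hp] at h2
    have h3 : mv r (x' : ℕ) = x' := by simpa using h2
    have h4 := (mv_eq_iff t (ptF r) x').2 (by rwa [ptF_val' hr3])
    rwa [he, htx, ptF_val' hy3, ptF_val' hx3] at h4

theorem Geo.stab_dom (hΓ : Γ.OK) (hg : Γ.genB = true) {roots : List ℕ} (hc : Γ.commB roots = true)
    (hr : Γ.Reach roots) {seeds : List ℕ} (hseeds : ∀ s ∈ seeds, s ∈ Γ.pts ∧ ∃ j, Γ.lab s = Γ.lab (Γ.seed j))
    (hd : Γ.derB seeds = true) (hcov : Γ.covB = true) (hdec : ∀ v, ∃ n < 2 ^ Γ.dim, Γ.dec n = v)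
    {g : G22} (hsame : ∀ u v, u ∈ Γ.pts → v ∈ Γ.pts → Γ.lab u = Γ.lab v →
      Γ.dec (Γ.lab ((pRep g (ptF u) : Fin 3510) : ℕ)) = Γ.dec (Γ.lab ((pRep g (ptF v) : Fin 3510) : ℕ)))
    (hm : ∀ z : Fin 3510, (z : ℕ) ∈ Γ.pts → ((pRep g z : Fin 3510) : ℕ) ∈ Γ.pts) : g ∈ Γ.dom := by
  classical
  let im : ℕ → ℕ := fun z => ((pRep g (ptF z) : Fin 3510) : ℕ)
  have him : ∀ z ∈ Γ.pts, im z ∈ Γ.pts := fun z hz => hm _ (by rwa [ptF_val' (hΓ.pts z hz).1])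
  let A : Matrix ι ι (ZMod 2) := fun i j => Γ.dec (Γ.lab (im (Γ.seed j))) i
  let M : Matrix ι ι (ZMod 2) := A * Γ.seedN
  have hMS : M * Γ.seedM = A := by rw [mul_assoc, Geo.mul_seed hΓ, mul_one]
  simp only [Geo.derB, Bool.and_eq_true, List.all_eq_true] at hd
  have key : ∀ z ∈ seeds ++ Γ.der.map Prod.fst,
      z ∈ Γ.pts → M *ᵥ Γ.dec (Γ.lab z) = Γ.dec (Γ.lab (im z)) := by
    refine fun z hz => ordB_induction (P := fun z => z ∈ Γ.pts → M *ᵥ Γ.dec (Γ.lab z) = Γ.dec (Γ.lab (im z)))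
      Γ.der seeds hd.1 ?_ ?_ z hz
    · intro s hs _
      obtain ⟨hsp, j, hj⟩ := hseeds s hs
      rw [hj, hsame s _ hsp (hΓ.seedMem j) hj]
      funext i
      rw [Geo.mulVec_seed, hMS]
    intro y x hp hPy hPx _
    simp only [Bool.and_eq_true] at hp
    obtain ⟨⟨hyp, hxp⟩, hpol⟩ := hp
    have hy : y ∈ Γ.pts := by simpa using hyp
    have hx : x ∈ Γ.pts := by simpa using hxp
    obtain ⟨hy3, hy1, -⟩ := hΓ.pts y hy
    obtain ⟨hx3, hx1, -⟩ := hΓ.pts x hx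
    have hpol' : Γ.polN (Γ.lab y) (Γ.lab x) = 1 := Nat.eq_of_beq_eq_true hpol
    have e1 : Γ.lab y ^^^ Γ.lab x < 2 ^ Γ.dim := Nat.xor_lt_two_pow hy1 hx1
    -- the label of the image
    have hl : Γ.dec (Γ.lab (mv y x)) = Γ.dec (Γ.lab x) + Γ.dec (Γ.lab y) := by
      have h1 := ((Geo.tr_spec hΓ hg hy).2 (ptF x) (by rwa [ptF_val' hx3])).2
      rw [FiPair.pRep_tr, ptF_val' hy3, ptF_val' hx3, Geo.rfl_dec hΓ hy1 hx1, Geo.rflN, if_pos hpol',
        Geo.dec_xor] at h1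
      exact h1.symm
    have hgy := him y hy
    have hgx := him x hx
    obtain ⟨hgy3, hgy1, -⟩ := hΓ.pts _ hgy
    obtain ⟨hgx3, hgx1, -⟩ := hΓ.pts _ hgx
    have hne : ¬ mv (im y) (im x) = im x := by
      intro h
      have h1 := (mv_eq_iff g (ptF y) (ptF x)).1 h
      rw [ptF_val' hy3, ptF_val' hx3] at h1
      rw [(Geo.mv_eq_iff_polN hΓ hg hc hr hy hx).1 h1] at hpol'
      exact zero_ne_one hpol'
    have hpg : Γ.polN (Γ.lab (im y)) (Γ.lab (im x)) = 1 := by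
      have hlt : Γ.polN (Γ.lab (im y)) (Γ.lab (im x)) < 2 := Nat.mod_lt _ two_pos
      rw [Geo.mv_eq_iff_polN hΓ hg hc hr hgy hgx] at hne
      omega
    have hi : im (mv y x) = mv (im y) (im x) := by
      have h := congrArg Fin.val (mv_transport g (ptF y) (ptF x))
      rw [ptF_val' hy3, ptF_val' hx3] at h
      refine h.trans (ptF_val' ?_)
      show mv ((pRep g (ptF y) : Fin 3510) : ℕ) _ < 3510
      rw [← FiPair.pRep_tr]
      exact Fin.isLt _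
    have hlg : Γ.dec (Γ.lab (mv (im y) (im x))) = Γ.dec (Γ.lab (im x)) + Γ.dec (Γ.lab (im y)) := by
      have h1 := ((Geo.tr_spec hΓ hg hgy).2 (ptF (im x)) (by rwa [ptF_val' hgx3])).2
      rw [FiPair.pRep_tr, ptF_val' hgy3, ptF_val' hgx3, Geo.rfl_dec hΓ hgy1 hgx1, Geo.rflN, if_pos hpg,
        Geo.dec_xor] at h1
      exact h1.symm
    rw [hl, hi, hlg, Matrix.mulVec_add, hPy hy, hPx hx]
  have hlab : ∀ z ∈ Γ.pts, M *ᵥ Γ.dec (Γ.lab z) = Γ.dec (Γ.lab (im z)) := fun z hz =>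
    key z (by simpa using hd.2 z hz) hz
  -- the image set is everything
  let S : Finset (Fin 3510) := Finset.univ.filter fun x => (x : ℕ) ∈ Γ.pts
  have hsurj : ∀ u ∈ Γ.pts, ∃ z ∈ Γ.pts, im z = u := by
    intro u hu
    have hmap : S.image (pRep g) ⊆ S := fun x hx => by
      obtain ⟨y, hy, rfl⟩ := Finset.mem_image.1 hx
      exact Finset.mem_filter.2 ⟨Finset.mem_univ _, hm y (Finset.mem_filter.1 hy).2⟩
    have he : S.image (pRep g) = S :=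
      Finset.eq_of_subset_of_card_le hmap (Finset.card_image_of_injective _ (pRep g).injective).ge
    obtain ⟨y, hy, hyu⟩ := Finset.mem_image.1 (he.ge (Finset.mem_filter.2
      ⟨Finset.mem_univ _, (show ((ptF u : Fin 3510) : ℕ) ∈ Γ.pts by rwa [ptF_val' (hΓ.pts u hu).1])⟩))
    refine ⟨y, (Finset.mem_filter.1 hy).2, ?_⟩
    show ((pRep g (ptF y) : Fin 3510) : ℕ) = u
    rw [ptF_self, hyu, ptF_val' (hΓ.pts u hu).1]
  choose pre hpre using fun j => hsurj _ (hΓ.seedMem j)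
  let X : Matrix ι ι (ZMod 2) := fun i j => Γ.dec (Γ.lab (pre j)) i
  have hX : M * (X * Γ.seedN) = 1 := by
    rw [← mul_assoc]
    have e : M * X = Γ.seedM := by
      ext i j
      rw [show (M * X) i j = (M *ᵥ Γ.dec (Γ.lab (pre j))) i from rfl, hlab _ (hpre j).1, (hpre j).2]
      rfl
    rw [e, Geo.seed_mul hΓ]
  let U : GL ι (ZMod 2) := ⟨M, X * Γ.seedN, hX, mul_eq_one_comm.1 hX⟩
  have hset : ∀ v, Γ.R v ≠ 0 → ∃ z ∈ Γ.pts, Γ.dec (Γ.lab z) = v := by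
    intro v hv
    obtain ⟨n, hn, rfl⟩ := hdec v
    simp only [Geo.covB, List.all_eq_true, Bool.or_eq_true, List.any_eq_true] at hcov
    rcases hcov n (List.mem_range.2 hn) with h | ⟨z, hz, h⟩
    · refine absurd ?_ hv
      rw [hΓ.q n hn]
      exact (CharP.cast_eq_zero_iff (ZMod 2) 2 (Γ.qN n)).2 (Nat.dvd_of_mod_eq_zero (Nat.eq_of_beq_eq_true h))
    · exact ⟨z, hz, by rw [Nat.eq_of_beq_eq_true h]⟩
  have hfwd : ∀ v, Γ.R v ≠ 0 → Γ.R (M *ᵥ v) ≠ 0 := by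
    intro v hv
    obtain ⟨z, hz, rfl⟩ := hset v hv
    rw [hlab z hz]
    exact Geo.R_lab hΓ (him z hz)
  have hMinj : Function.Injective fun v => M *ᵥ v := fun v w e => by
    have := congrArg ((X * Γ.seedN) *ᵥ ·) e
    simpa [Matrix.mulVec_mulVec, mul_eq_one_comm.1 hX] using this
  have hback : ∀ v, Γ.R (M *ᵥ v) ≠ 0 → Γ.R v ≠ 0 := by
    intro v hv
    let T : Finset (ι → ZMod 2) := Finset.univ.filter fun v => Γ.R v ≠ 0
    have hmap : T.image (fun v => M *ᵥ v) ⊆ T := fun x hx => by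
      obtain ⟨y, hy, rfl⟩ := Finset.mem_image.1 hx
      exact Finset.mem_filter.2 ⟨Finset.mem_univ _, hfwd y (Finset.mem_filter.1 hy).2⟩
    have he : T.image (fun v => M *ᵥ v) = T :=
      Finset.eq_of_subset_of_card_le hmap (Finset.card_image_of_injective _ hMinj).ge
    obtain ⟨y, hy, e⟩ := Finset.mem_image.1 (he.ge (Finset.mem_filter.2 ⟨Finset.mem_univ _, hv⟩))
    exact hMinj e ▸ (Finset.mem_filter.1 hy).2
  have hmem : U ∈ Γ.O := fun v _ => by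
    show Γ.R (M *ᵥ v) = Γ.R v
    have h2 : ∀ a b : ZMod 2, (a ≠ 0 ↔ b ≠ 0) → a = b := by decide
    exact h2 _ _ ⟨hback v, hfwd v⟩
  refine ⟨⟨U, hmem⟩, fun z hz => ⟨hm z hz, ?_⟩⟩
  show M *ᵥ Γ.dec (Γ.lab (z : ℕ)) = _
  rw [hlab _ hz]
  show Γ.dec (Γ.lab ((pRep g (ptF (z : ℕ)) : Fin 3510) : ℕ)) = _
  rw [ptF_self]

end Cfsg.Agent.SporB.FiOutInv
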