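import Cfsg.Agent.SporB.FiOutInv.CentA
import Cfsg.Agent.SporB.FiOutInv.CentAB
import Cfsg.Agent.SporB.FiOutInv.Classes

/-! Summary for the presented Fischer group and transport. -/

set_option autoImplicit false
set_option maxRecDepth 100000

namespace Cfsg.Agent.SporB.FiOutInv

open Cfsg.Agent.CosetCert Cfsg.Agent.SporB.FischerU Cfsg.Agent.SporB.FiPair

/-- A group isomorphism on fixed subgroups and their cores. -/
theorem fixed_transport {A B : Type*} [Group A] [Group B] (e : A ≃* B) (K : Subgroup A)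
    (O : Subgroup A) {Q : Type*} [Group Q] (hO : O = (Cfsg.pCore 2 ↥K).map K.subtype)
    (hE : Cfsg.IsElementaryAbelian 2 O) (hc : Nat.card O = 64)
    (hq : ∃ _ : (O.subgroupOf K).Normal, Nonempty (↥K ⧸ O.subgroupOf K ≃* Q)) :
    ∃ O' : Subgroup B, O' = (Cfsg.pCore 2 ↥(K.map e.toMonoidHom)).map (K.map e.toMonoidHom).subtype ∧
      Cfsg.IsElementaryAbelian 2 O' ∧ Nat.card O' = 64 ∧
      ∃ _ : (O'.subgroupOf (K.map e.toMonoidHom)).Normal,
        Nonempty (↥(K.map e.toMonoidHom) ⧸ O'.subgroupOf (K.map e.toMonoidHom) ≃* Q) := by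
  let ε : ↥K ≃* ↥(K.map e.toMonoidHom) := e.subgroupMap K
  have hmax : (Cfsg.pCore 2 ↥K).map ε.toMonoidHom = Cfsg.pCore 2 ↥(K.map e.toMonoidHom) := by
    rw [Cfsg.pCore, Cfsg.pCore, sSup_eq_iSup', Subgroup.map_iSup, sSup_eq_iSup']
    refine le_antisymm (iSup_le fun N => le_iSup_of_le ⟨N.1.map ε.toMonoidHom, N.2.1.map _ ε.surjective, N.2.2.map _⟩ le_rfl)
      (iSup_le fun N => le_iSup_of_le ⟨N.1.comap ε.toMonoidHom, N.2.1.comap _, ?_⟩ ?_)
    · exact N.2.2.comap_of_injective _ ε.injective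
    · rw [Subgroup.map_comap_eq_self_of_surjective ε.surjective]
  have hcomm : (O.map e.toMonoidHom) = (Cfsg.pCore 2 ↥(K.map e.toMonoidHom)).map (K.map e.toMonoidHom).subtype := by
    rw [← hmax, Subgroup.map_map, hO, Subgroup.map_map]
    rfl
  refine ⟨O.map e.toMonoidHom, hcomm, ?_, ?_, ?_⟩
  · obtain ⟨hm, hs⟩ := hE
    refine ⟨⟨⟨?_⟩⟩, ?_⟩
    · rintro ⟨_, x, hx, rfl⟩ ⟨_, y, hy, rfl⟩
      refine Subtype.ext ?_
      show e x * e y = e y * e x
      rw [← map_mul, ← map_mul]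
      exact congrArg e (congrArg Subtype.val (hm.is_comm.comm ⟨x, hx⟩ ⟨y, hy⟩))
    · rintro _ ⟨x, hx, rfl⟩
      show e x ^ 2 = 1
      rw [← map_pow, hs x hx, map_one]
  · rw [Subgroup.card_map_of_injective e.injective, hc]
  · obtain ⟨hn, ⟨θ⟩⟩ := hq
    have he : (O.map e.toMonoidHom).subgroupOf (K.map e.toMonoidHom) = (O.subgroupOf K).map ε.toMonoidHom := by
      ext ⟨x, hx⟩
      constructor
      · rintro ⟨y, hy, (hyx : e y = x)⟩
        obtain ⟨z, hz, (hzx : e z = x)⟩ := hx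
        obtain rfl : y = z := e.injective (hyx.trans hzx.symm)
        exact ⟨⟨y, hz⟩, hy, Subtype.ext hyx⟩
      · rintro ⟨y, hy, e'⟩
        exact ⟨y.1, hy, congrArg Subtype.val e'⟩
    haveI hn' : ((O.map e.toMonoidHom).subgroupOf (K.map e.toMonoidHom)).Normal := by
      rw [he]; exact hn.map _ ε.surjective
    exact ⟨hn', ⟨(QuotientGroup.congr _ _ ε he.symm).symm.trans θ⟩⟩

theorem b_facts : piA 17 = 17 ∧ mv 16 17 = 17 := by decide +kernel

theorem tr_conjA (z : Fin 3510) : tr z ∈ conjugatesOf (PresentedGroup.of Cfsg.Spor.Fi22.Gen.a) := by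
  have e : (PresentedGroup.of Cfsg.Spor.Fi22.Gen.a : Cfsg.Spor.Fi22) = transA := by
    rw [← FischerU.val_code .a]; rfl
  rw [e, tr_eq]
  exact isConj_iff.2 ⟨_, rfl⟩

theorem outer_congr {G : Type*} [Group G] (e : Cfsg.Spor.Fi22 ≃* G) (w : List ℕ) :
    MulAut.congr e (outer w) = MulAut.congr e swapAut * MulAut.conj (e (el w)) := by
  rw [outer, map_mul]
  congr 1
  refine MulEquiv.ext fun x => ?_
  show e (el w * e.symm x * (el w)⁻¹) = e (el w) * x * (e (el w))⁻¹
  rw [map_mul, map_mul, map_inv, e.apply_symm_apply]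

theorem congr_inner {G : Type*} [Group G] (e : Cfsg.Spor.Fi22 ≃* G) (α : MulAut Cfsg.Spor.Fi22) :
    MulAut.congr e α ∈ (MulAut.conj : G →* MulAut G).range ↔ α ∈ Cfsg.Inn Cfsg.Spor.Fi22 := by
  constructor
  · rintro ⟨g, hg⟩
    refine ⟨e.symm g, MulEquiv.ext fun x => e.injective ?_⟩
    have h := DFunLike.congr_fun hg (e x)
    change g * e x * g⁻¹ = e (α (e.symm (e x))) at h
    rw [e.symm_apply_apply] at h
    rw [MulAut.conj_apply, map_mul, map_mul, map_inv, e.apply_symm_apply, h]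
  · rintro ⟨g, rfl⟩
    refine ⟨e g, MulEquiv.ext fun x => ?_⟩
    show e g * x * (e g)⁻¹ = e (g * e.symm x * g⁻¹)
    rw [map_mul, map_mul, map_inv, e.apply_symm_apply]

theorem mem_map_fix {G : Type*} [Group G] (e : Cfsg.Spor.Fi22 ≃* G) (w : List ℕ) (g : G) :
    g ∈ (fixSub w).map e.toMonoidHom ↔ MulAut.congr e (outer w) g = g := by
  constructor
  · rintro ⟨x, hx, rfl⟩
    show e (outer w (e.symm (e x))) = e x
    rw [e.symm_apply_apply, mem_fixSub.1 hx]
  · intro h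
    change e (outer w (e.symm g)) = g at h
    exact ⟨e.symm g, mem_fixSub.2 (e.injective (h.trans (e.apply_symm_apply g).symm)), e.apply_symm_apply g⟩

/-- The statement, for a group isomorphic to the presented one. -/
theorem model_transfer {G : Type*} [Group G] {D : Set G} (e : Cfsg.Spor.Fi22 ≃* G)
    (he : e '' conjugatesOf (PresentedGroup.of Cfsg.Spor.Fi22.Gen.a) = D) :
    ∃ (s : MulAut G) (a b : G) (Cs : Subgroup G), orderOf s = 2 ∧ s ∉ (MulAut.conj : G →* MulAut G).range ∧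
      (∀ g : G, g ∈ Cs ↔ s g = g) ∧
      Nonempty (↥Cs ≃* MulAut (Cfsg.Omega (ZMod 2) (Cfsg.quadFormPlus 4 (ZMod 2)))) ∧
      a ∈ D ∧ b ∈ D ∧ a ≠ b ∧ Commute a b ∧ s a = a ∧ s b = b ∧
      (∀ t : MulAut G, orderOf t = 2 → t ∉ (MulAut.conj : G →* MulAut G).range →
        (IsConj t s ∨ IsConj t (s * MulAut.conj a) ∨ IsConj t (s * MulAut.conj (a * b)))) ∧
      ¬ IsConj s (s * MulAut.conj a) ∧ ¬ IsConj s (s * MulAut.conj (a * b)) ∧
      ¬ IsConj (s * MulAut.conj a) (s * MulAut.conj (a * b)) ∧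
      (∀ g : G, (s * MulAut.conj a) g = g ↔ g ∈ Cs ⊓ Subgroup.centralizer ({a} : Set G)) ∧
      Nonempty (↥(Cs ⊓ Subgroup.centralizer ({a} : Set G)) ≃* Multiplicative (ZMod 2) × Cfsg.PSp 3 (ZMod 2)) ∧
      ∃ Csab O : Subgroup G, (∀ g : G, g ∈ Csab ↔ (s * MulAut.conj (a * b)) g = g) ∧
        O = (Cfsg.pCore 2 ↥Csab).map Csab.subtype ∧ Cfsg.IsElementaryAbelian 2 O ∧ Nat.card O = 64 ∧
        ∃ _ : (O.subgroupOf Csab).Normal, Nonempty (↥Csab ⧸ O.subgroupOf Csab ≃*
          Cfsg.isometryGroup (ZMod 2) (Cfsg.quadFormMinus 2 (ZMod 2) 1 1)) := by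
  let φ := MulAut.congr e
  set s : MulAut G := φ swapAut with hs
  set a : G := e (tr (ptF 16)) with ha
  set b : G := e (tr (ptF 17)) with hb
  have o0 : φ (outer []) = s := by
    rw [outer_congr, el_nil, map_one, map_one, mul_one]
  have o1 : φ (outer [16]) = s * MulAut.conj a := by rw [outer_congr, el_singleton]
  have o2 : φ (outer [16, 17]) = s * MulAut.conj (a * b) := by
    rw [outer_congr, el_cons, el_singleton, map_mul]
  have hA : piA 16 = 16 := a_facts.1
  have hab : Commute (tr (ptF 16)) (tr (ptF 17)) := (commute_iff_mv _ _).2 (by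
    rw [ptF_val' (by norm_num : 16 < 3510), ptF_val' (by norm_num : 17 < 3510)]; exact b_facts.2)
  have hnc : ∀ r q : Fin 3, r ≠ q → ¬ IsConj (φ (outer (repW r))) (φ (outer (repW q))) := fun r q hne h =>
    not_conj r q hne (by simpa using φ.symm.toMonoidHom.map_isConj h)
  have hH : (fixSub []).map e.toMonoidHom ⊓ Subgroup.centralizer ({a} : Set G) = HA.map e.toMonoidHom := by
    ext g
    constructor
    · rintro ⟨⟨x, hx, rfl⟩, hc⟩
      refine ⟨x, ⟨hx, Subgroup.mem_centralizer_singleton_iff.2 (e.injective ?_)⟩, rfl⟩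
      rw [map_mul, map_mul]
      exact Subgroup.mem_centralizer_singleton_iff.1 hc
    · rintro ⟨x, ⟨hx, hc⟩, rfl⟩
      refine ⟨⟨x, hx, rfl⟩, Subgroup.mem_centralizer_singleton_iff.2 ?_⟩
      show e x * e _ = e _ * e x
      rw [← map_mul, ← map_mul, Subgroup.mem_centralizer_singleton_iff.1 hc]
  refine ⟨s, a, b, (fixSub []).map e.toMonoidHom, ?_, ?_, fun g => ?_, ?_, he ▸ Set.mem_image_of_mem e (tr_conjA _),
    he ▸ Set.mem_image_of_mem e (tr_conjA _), ?_, hab.map e.toMonoidHom, ?_, ?_, ?_, ?_, ?_, ?_, fun g => ?_, ?_, ?_⟩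
  · rw [← o0, MulEquiv.orderOf_eq]
    refine orderOf_eq_prime ?_ fun h => outer_not_inner [] (h ▸ one_mem _)
    have e0 : outer [] = swapAut := by rw [outer, el_nil, map_one, mul_one]
    rw [e0, pow_two, swap_sq]
  · rw [← o0, congr_inner]; exact outer_not_inner []
  · rw [mem_map_fix, o0]
  · obtain ⟨θ⟩ := CS_iso
    exact ⟨(e.subgroupMap _).symm.trans θ⟩
  · intro h
    have := congrArg Fin.val (tr_injective (e.injective h))
    rw [ptF_val' (by norm_num : 16 < 3510), ptF_val' (by norm_num : 17 < 3510)] at this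
    norm_num at this
  · show e (swapAut (e.symm (e _))) = _
    rw [e.symm_apply_apply, swap_ptF, hA]
  · show e (swapAut (e.symm (e _))) = _
    rw [e.symm_apply_apply, swap_ptF, b_facts.1]
  · intro t ht hn
    obtain ⟨τ, rfl⟩ := φ.surjective t
    rw [MulEquiv.orderOf_eq] at ht
    rw [congr_inner] at hn
    obtain ⟨r, hr⟩ := classify (by rw [← pow_two, ← ht, pow_orderOf_eq_one]) hn
    have h' : IsConj (φ τ) (φ (outer (repW r))) := φ.toMonoidHom.map_isConj hr
    fin_cases r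
    · left; rw [← o0]; exact h'
    · right; left; rw [← o1]; exact h'
    · right; right; rw [← o2]; exact h'
  · rw [← o1, ← o0]; exact hnc 0 1 (by decide)
  · rw [← o2, ← o0]; exact hnc 0 2 (by decide)
  · rw [← o1, ← o2]; exact hnc 1 2 (by decide)
  · rw [hH, ← o1, ← mem_map_fix]
    have : fixSub [16] = HA := Subgroup.ext fun x => fixA_iff x
    rw [this]
  · obtain ⟨θ⟩ := CA_iso
    exact ⟨(MulEquiv.subgroupCongr hH).trans ((e.subgroupMap _).symm.trans θ)⟩
  · obtain ⟨O, hO, hE, hc, hq⟩ := CX_facts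
    obtain ⟨O', h1, h2, h3, h4⟩ := fixed_transport e CX O hO hE hc hq
    exact ⟨_, O', fun g => by rw [mem_map_fix, o2], h1, h2, h3, h4⟩

end Cfsg.Agent.SporB.FiOutInv
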