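import Cfsg.Agent.SporB.FiOutInv.GeoAux
import Cfsg.Agent.SporB.FiOutInv.Data
import Cfsg.Agent.Classical.OrthCount

/-! The first component of the fixed transpositions of the symmetry. -/

set_option autoImplicit false
set_option maxRecDepth 100000

namespace Cfsg.Agent.SporB.FiOutInv

open Cfsg.Agent.CosetCert Cfsg.Agent.SporB.FischerU Cfsg.Agent.SporB.FiPair
open Cfsg.Agent.Classical QuadraticMap

/-- The coordinates. -/
abbrev J8 : Type := Fin 4 ⊕ Fin 4

/-- The position of a coordinate. -/
def pos8 : J8 → ℕ := Sum.elim (fun i => i.val) (fun i => 4 + i.val)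

/-- The form on codes. -/
def q8N (n : ℕ) : ℕ :=
  ((n % 2) * (n / 16 % 2) + (n / 2 % 2) * (n / 32 % 2) + (n / 4 % 2) * (n / 64 % 2) +
    (n / 8 % 2) * (n / 128 % 2)) % 2

/-- The geometry of the first component. -/
noncomputable def geo1 : Geo J8 where
  R := plusQF 4 (ZMod 2)
  pos := pos8
  dim := 8
  pts := compL.getD 0 []
  lab := lookN oneLab
  qN := q8N
  seed j := (compGen.getD 0 []).getD (pos8 j) 0
  seedInv j := oneInv.getD (pos8 j) 0
  gens := compGen.getD 0 []
  tree := compTree.getD 0 []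
  der := oneDer

/-- The vector of a code. -/
def dec8 (n : ℕ) : J8 → ZMod 2 := fun i => if n.testBit (pos8 i) then 1 else 0

theorem geo1_dec (n : ℕ) : geo1.dec n = dec8 n := rfl

theorem q8_check : ∀ n : Fin 256, Cfsg.quadFormPlus 4 (ZMod 2) (dec8 n) = (q8N n : ZMod 2) := by
  decide +kernel

theorem pos8_lt : ∀ i, pos8 i < 8 := by decide +kernel

theorem seed1_mem : ∀ i : J8, (compGen.getD 0 []).getD (pos8 i) 0 ∈ compL.getD 0 [] := by decide +kernel

theorem seed1_inv : ∀ i j : J8, ∑ k : J8, dec8 (lookN oneLab ((compGen.getD 0 []).getD (pos8 k) 0)) i *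
    dec8 (oneInv.getD (pos8 j) 0) k = if i = j then 1 else 0 := by decide +kernel

theorem pts1_check : ((compL.getD 0 []).all fun z => Nat.blt z 3510 && Nat.blt (lookN oneLab z) 256 &&
    Nat.beq (q8N (lookN oneLab z) % 2) 1) = true := by decide +kernel

theorem geo1_ok : geo1.OK where
  q n hn := by
    rw [geo1_dec, show geo1.R = plusQF 4 (ZMod 2) from rfl, plusQF_apply]
    exact q8_check ⟨n, hn⟩
  pos := pos8_lt
  seedMem := seed1_mem
  seedInv := seed1_inv
  pts z hz := by
    have h := List.all_eq_true.1 pts1_check z hz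
    simp only [Bool.and_eq_true, Nat.blt_eq] at h
    exact ⟨h.1.1, h.1.2, Nat.eq_of_beq_eq_true h.2⟩

theorem gen1_check : geo1.genB = true := by decide +kernel

theorem comm1_check : geo1.commB [compRoot.getD 0 0] = true := by decide +kernel

theorem der1_check : geo1.derB (compGen.getD 0 []) = true := by decide +kernel

theorem cov1_check : geo1.covB = true := by decide +kernel

theorem seeds1_cover : ∀ s ∈ compGen.getD 0 [], ∃ j : J8, geo1.lab s = geo1.lab (geo1.seed j) := by
  intro s hs
  have h : ∀ s ∈ compGen.getD 0 [], ∃ j : J8, (compGen.getD 0 []).getD (pos8 j) 0 = s := by decide +kernel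
  obtain ⟨j, hj⟩ := h s hs
  exact ⟨j, (congrArg geo1.lab hj).symm⟩

theorem dec8_surj : ∀ v : J8 → ZMod 2, ∃ n : Fin 256, dec8 n = v := by decide +kernel

theorem bNondeg8 : BNondeg (plusQF 4 (ZMod 2)) := by
  have h : ∀ v : J8 → ZMod 2, (∀ i : J8,
      Cfsg.quadFormPlus 4 (ZMod 2) (v + Pi.single i 1) - Cfsg.quadFormPlus 4 (ZMod 2) v -
        Cfsg.quadFormPlus 4 (ZMod 2) (Pi.single i 1) = 0) → v = 0 := by decide +kernel
  intro v hv
  refine h v fun i => ?_
  have := hv (Pi.single i 1)
  simpa [QuadraticMap.polar, plusQF_apply] using this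

theorem notExceptional8 : OrthGen.NotExceptional (plusQF 4 (ZMod 2)) :=
  Or.inr (by simp)

theorem lab1_nodup : ((compL.getD 0 []).map (lookN oneLab)).Nodup := by decide +kernel

theorem lab1_inj : ∀ y ∈ compL.getD 0 [], ∀ z ∈ compL.getD 0 [], lookN oneLab y = lookN oneLab z → y = z :=
  fun _ hy _ hz h => List.inj_on_of_nodup_map lab1_nodup hy hz h

theorem rigid1_check : rigidB [] (compL.getD 0 []) 0 154 oneFilt oneWord = true := by decide +kernel

end Cfsg.Agent.SporB.FiOutInv
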