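import Cfsg.Agent.SporB.FiOutInv.GeoAux
import Cfsg.Agent.SporB.FiOutInv.Data
import Cfsg.Agent.Classical.OrthForms

/-! The fixed transpositions of the third kind of outer involution. -/

set_option autoImplicit false
set_option maxRecDepth 100000

namespace Cfsg.Agent.SporB.FiOutInv

open Cfsg.Agent.CosetCert Cfsg.Agent.SporB.FischerU Cfsg.Agent.SporB.FiPair
open Cfsg.Agent.Classical QuadraticMap

/-- The coordinates. -/
abbrev I6 : Type := (Fin 2 ⊕ Fin 2) ⊕ Fin 2

/-- The position of a coordinate. -/
def pos6 : I6 → ℕ := Sum.elim (Sum.elim (fun i => i.val) (fun i => 2 + i.val)) (fun i => 4 + i.val)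

/-- The form on codes. -/
def q6N (n : ℕ) : ℕ :=
  ((n % 2) * (n / 4 % 2) + (n / 2 % 2) * (n / 8 % 2) + n / 16 % 2 + (n / 16 % 2) * (n / 32 % 2) + n / 32 % 2) % 2

/-- The geometry. -/
noncomputable def geo3 : Geo I6 where
  R := minusQF 2 (1 : ZMod 2) 1
  pos := pos6
  dim := 6
  pts := pairPts
  lab := lookN pairLab
  qN := q6N
  seed j := pairSeed.getD (pos6 j) 0
  seedInv j := pairInv.getD (pos6 j) 0
  gens := pairGen
  tree := pairTree
  der := pairDer

/-- The vector of a code. -/
def dec6' (n : ℕ) : I6 → ZMod 2 := fun i => if n.testBit (pos6 i) then 1 else 0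

theorem geo3_dec (n : ℕ) : geo3.dec n = dec6' n := rfl

theorem q6_check : ∀ n : Fin 64, Cfsg.quadFormMinus 2 (ZMod 2) 1 1 (dec6' n) = (q6N n : ZMod 2) := by
  decide +kernel

theorem pos6_lt : ∀ i, pos6 i < 6 := by decide +kernel

theorem seed3_mem : ∀ i : I6, pairSeed.getD (pos6 i) 0 ∈ pairPts := by decide +kernel

theorem seed3_inv : ∀ i j : I6, ∑ k : I6, dec6' (lookN pairLab (pairSeed.getD (pos6 k) 0)) i *
    dec6' (pairInv.getD (pos6 j) 0) k = if i = j then 1 else 0 := by decide +kernel

theorem pts3_check : (pairPts.all fun z => Nat.blt z 3510 && Nat.blt (lookN pairLab z) 64 &&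
    Nat.beq (q6N (lookN pairLab z) % 2) 1) = true := by decide +kernel

theorem geo3_ok : geo3.OK where
  q n hn := by
    rw [geo3_dec, show geo3.R = minusQF 2 (1 : ZMod 2) 1 from rfl, minusQF_apply]
    exact q6_check ⟨n, hn⟩
  pos := pos6_lt
  seedMem := seed3_mem
  seedInv := seed3_inv
  pts z hz := by
    have h := List.all_eq_true.1 pts3_check z hz
    simp only [Bool.and_eq_true, Nat.blt_eq] at h
    exact ⟨h.1.1, h.1.2, Nat.eq_of_beq_eq_true h.2⟩

theorem gen3_check : geo3.genB = true := by decide +kernel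

theorem comm3_check : geo3.commB [pairGen.getD 0 0] = true := by decide +kernel

theorem tree3_check : treeB pairGen pairTree [pairGen.getD 0 0] = true := by decide +kernel

theorem tree3_cover : (pairPts.all fun z => (pairGen.getD 0 0 :: pairTree.map Prod.fst).contains z) = true := by
  decide +kernel

theorem der3_check : geo3.derB pairGen = true := by decide +kernel

theorem cov3_check : geo3.covB = true := by decide +kernel

theorem seeds3_cover : ∀ s ∈ pairGen, s ∈ pairPts ∧ ∃ j : I6,
    lookN pairLab s = lookN pairLab (pairSeed.getD (pos6 j) 0) := by decide +kernel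

theorem scan3 : allB (fun x => Nat.ble 3510 x || !Nat.beq (sg [16, 17] x) x || pairPts.contains x) 12 0 = true := by
  decide +kernel

theorem pts3_fixed : (pairPts.all fun z => Nat.beq (sg [16, 17] z) z) = true := by decide +kernel

theorem dec6_surj : ∀ v : I6 → ZMod 2, ∃ n : Fin 64, dec6' n = v := by decide +kernel

theorem bNondeg6 : BNondeg (minusQF 2 (1 : ZMod 2) 1) := by
  have h : ∀ v : I6 → ZMod 2, (∀ i : I6,
      Cfsg.quadFormMinus 2 (ZMod 2) 1 1 (v + Pi.single i 1) - Cfsg.quadFormMinus 2 (ZMod 2) 1 1 v -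
        Cfsg.quadFormMinus 2 (ZMod 2) 1 1 (Pi.single i 1) = 0) → v = 0 := by decide +kernel
  intro v hv
  refine h v fun i => ?_
  have := hv (Pi.single i 1)
  simpa [QuadraticMap.polar, minusQF_apply] using this

theorem notExceptional6 : OrthGen.NotExceptional (minusQF 2 (1 : ZMod 2) 1) :=
  Or.inr (by simp)

theorem twin_check : (pairPts.all fun z => pairPts.contains (lookN pairTwin z) &&
    !Nat.beq (lookN pairTwin z) z && Nat.beq (lookN pairTwin (lookN pairTwin z)) z &&
    pairPts.all fun w => !Nat.beq (lookN pairLab w) (lookN pairLab z) || Nat.beq w z ||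
      Nat.beq w (lookN pairTwin z)) = true := by decide +kernel

theorem twin_lab : (pairPts.all fun z => Nat.beq (lookN pairLab (lookN pairTwin z)) (lookN pairLab z)) = true := by
  decide +kernel

theorem gen_cases : ∀ z ∈ pairGen, z ∈ pairSeed ∨ lookN pairTwin z ∈ pairSeed := by decide +kernel

theorem flip_check : (List.finRange 6).all (fun k =>
    (pairFlip.getD k []).all (fun y => pairPts.contains y) &&
    pairPts.all (fun z => pairPts.contains (act (pairFlip.getD k []) z) &&
      Nat.beq (lookN pairLab (act (pairFlip.getD k []) z)) (lookN pairLab z)) &&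
    (List.finRange 6).all fun j =>
      Nat.beq (act (pairFlip.getD k []) (pairSeed.getD j 0)) (pairSeed.getD j 0) == !Nat.beq (k : ℕ) (j : ℕ)) = true := by
  decide +kernel

theorem rigid3_check : rigidB [16, 17] pairPts 1 pairQ pairFilt pairWord = true := by decide +kernel

end Cfsg.Agent.SporB.FiOutInv
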