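import Cfsg.Agent.SporB.FiOutInv.SylChecks
import Mathlib.GroupTheory.Sylow

/-! The outer involutions of the presented Fischer group form three classes. -/

set_option autoImplicit false
set_option maxRecDepth 100000

namespace Cfsg.Agent.SporB.FiOutInv

open Cfsg.Agent.CosetCert Cfsg.Agent.SporB.FischerU Cfsg.Agent.SporB.FiPair

local notation "G22" => Cfsg.Spor.Fi22

/-- A member of the series. -/
noncomputable def SS (k : ℕ) : Subgroup G22 :=
  Subgroup.closure {g | ∃ i : Fin 17, (i : ℕ) < k ∧ g = el (sw i)}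

theorem gen_mem_SS {i : Fin 17} {k : ℕ} (h : (i : ℕ) < k) : el (sw i) ∈ SS k :=
  Subgroup.subset_closure ⟨i, h, rfl⟩

theorem xw_mem {e k : ℕ} (h : e < 2 ^ k) : el (xw e) ∈ SS k := by
  rw [xw]
  generalize hl : (List.range 17).reverse.filter (fun j => e.testBit j) = l
  have hb : ∀ j ∈ l, j < 17 ∧ j < k := by
    intro j hj
    rw [← hl, List.mem_filter, List.mem_reverse, List.mem_range] at hj
    refine ⟨hj.1, ?_⟩
    by_contra hjk
    have := Nat.testBit_lt_two_pow (h.trans_le (Nat.pow_le_pow_right two_pos (not_lt.1 hjk)))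
    rw [this] at hj
    exact absurd hj.2 (by simp)
  clear hl
  induction l with
  | nil => rw [List.flatMap_nil, el_nil]; exact one_mem _
  | cons a as ih =>
    rw [List.flatMap_cons, el_append]
    exact mul_mem (gen_mem_SS (i := ⟨a, (hb a List.mem_cons_self).1⟩) (hb a List.mem_cons_self).2)
      (ih fun j hj => hb j (List.mem_cons_of_mem _ hj))

theorem SS_mono {a b : ℕ} (h : a ≤ b) : SS a ≤ SS b :=
  Subgroup.closure_mono fun _ ⟨i, hi, e⟩ => ⟨i, hi.trans_le h, e⟩

theorem conj_gen (j i : Fin 17) : el (sw j) * el (sw i) * (el (sw j))⁻¹ ∈ SS ((i : ℕ) + 1) := by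
  have h := conj_check j i
  rw [Bool.and_eq_true] at h
  rw [← el_reverse, ← el_append, ← el_append, el_eq_of_sameB h.2]
  exact xw_mem (by simpa using h.1)

/-- The Sylow 2-subgroup. -/
noncomputable abbrev SY : Subgroup G22 := SS 17

theorem finite_G : Finite G22 := Nat.finite_of_card_ne_zero (by
  rw [CosetEnum.FiTwentyTwo.main.2]; norm_num)

theorem SS_normal (k : ℕ) {y : G22} (hy : y ∈ SY) : ∀ x ∈ SS k, y * x * y⁻¹ ∈ SS k := by
  haveI := finite_G
  induction hy using Subgroup.closure_induction with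
  | mem y hy =>
    obtain ⟨j, -, rfl⟩ := hy
    intro x hx
    induction hx using Subgroup.closure_induction with
    | mem x hx =>
      obtain ⟨i, hi, rfl⟩ := hx
      exact SS_mono hi (conj_gen j i)
    | one => simp
    | mul a b _ _ ha hb =>
      have : el (sw j) * (a * b) * (el (sw j))⁻¹ =
          (el (sw j) * a * (el (sw j))⁻¹) * (el (sw j) * b * (el (sw j))⁻¹) := by group
      rw [this]; exact mul_mem ha hb
    | inv a _ ha =>
      have : el (sw j) * a⁻¹ * (el (sw j))⁻¹ = (el (sw j) * a * (el (sw j))⁻¹)⁻¹ := by group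
      rw [this]; exact inv_mem ha
  | one => intro x hx; simpa using hx
  | mul a b _ _ ha hb =>
    intro x hx
    have : a * b * x * (a * b)⁻¹ = a * (b * x * b⁻¹) * a⁻¹ := by group
    rw [this]; exact ha _ (hb x hx)
  | inv a _ ha =>
    intro x hx
    obtain ⟨n, hn⟩ : ∃ n : ℕ, a⁻¹ = a ^ n :=
      ⟨orderOf a - 1, inv_eq_of_mul_eq_one_right (by
        rw [← pow_succ', Nat.sub_add_cancel (orderOf_pos a), pow_orderOf_eq_one])⟩
    have key : ∀ n : ℕ, ∀ x ∈ SS k, a ^ n * x * (a ^ n)⁻¹ ∈ SS k := by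
      intro n
      induction n with
      | zero => intro x hx; simpa using hx
      | succ n ih =>
        intro x hx
        have : a ^ (n + 1) * x * (a ^ (n + 1))⁻¹ = a * (a ^ n * x * (a ^ n)⁻¹) * a⁻¹ := by rw [pow_succ']; group
        rw [this]; exact ha _ (ih x hx)
    rw [hn]; exact key n x hx

theorem swap_SS (k : ℕ) {x : G22} (hx : x ∈ SS k) : swapAut x ∈ SS k := by
  induction hx using Subgroup.closure_induction with
  | mem x hx =>
    obtain ⟨i, hi, rfl⟩ := hx
    have h := phi_check i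
    rw [Bool.and_eq_true] at h
    rw [swap_el, el_eq_of_sameB h.2]
    exact SS_mono hi (xw_mem (by simpa using h.1))
  | one => rw [map_one]; exact one_mem _
  | mul a b _ _ ha hb => rw [map_mul]; exact mul_mem ha hb
  | inv a _ ha => rw [map_inv]; exact inv_mem ha

theorem SS_zero : SS 0 = ⊥ := by
  rw [SS, Subgroup.closure_eq_bot_iff]
  rintro g ⟨i, hi, -⟩
  exact absurd hi (Nat.not_lt_zero _)

theorem orb_facts (k : Fin 17) : orbP k < 3510 ∧
    (∀ g ∈ SS (k : ℕ), ((pRep g (ptF (orbP k)) : Fin 3510) : ℕ) ∈ orbS k) ∧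
    act (sw k) (orbP k) ∉ orbS k := by
  have h := orb_check k
  simp only [Bool.and_eq_true, List.all_eq_true, Bool.not_eq_true', List.contains_iff_mem, Nat.blt_eq,
    List.mem_range] at h
  obtain ⟨⟨⟨⟨hp, hm⟩, hlt⟩, hcl⟩, hne⟩ := h
  refine ⟨hp, fun g hg => ?_, fun e => ?_⟩
  · haveI := finite_G
    let S : Finset (Fin 3510) := Finset.univ.filter fun x => (x : ℕ) ∈ orbS k
    have key : ∀ g ∈ SS (k : ℕ), ∀ z ∈ S, pRep g z ∈ S := by
      intro g hg
      induction hg using Subgroup.closure_induction with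
      | mem g hg =>
        obtain ⟨i, hi, rfl⟩ := hg
        intro z hz
        refine Finset.mem_filter.2 ⟨Finset.mem_univ _, ?_⟩
        rw [pRep_el]
        exact hcl i hi _ (Finset.mem_filter.1 hz).2
      | one => intro z hz; simpa using hz
      | mul a b _ _ ha hb => intro z hz; rw [map_mul, Equiv.Perm.mul_apply]; exact ha _ (hb z hz)
      | inv a _ ha =>
        intro z hz
        have he : S.image (pRep a) = S :=
          Finset.eq_of_subset_of_card_le (fun x hx => by
            obtain ⟨y, hy, rfl⟩ := Finset.mem_image.1 hx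
            exact ha y hy) (Finset.card_image_of_injective _ (pRep a).injective).ge
        obtain ⟨y, hy, hyz⟩ := Finset.mem_image.1 (he.ge hz)
        rw [map_inv, ← hyz, Equiv.Perm.inv_def, Equiv.symm_apply_apply]
        exact hy
    exact (Finset.mem_filter.1 (key g hg (ptF (orbP k))
      (Finset.mem_filter.2 ⟨Finset.mem_univ _, by rw [ptF_val' hp]; exact hm⟩))).2
  · have : (orbS k).contains (act (sw k) (orbP k)) = true := by simpa using e
    rw [hne] at this
    exact absurd this (by simp)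

theorem gen_not_mem (k : Fin 17) : el (sw k) ∉ SS (k : ℕ) := fun h => by
  obtain ⟨hp, h1, h2⟩ := orb_facts k
  have := h1 _ h
  rw [pRep_el, ptF_val' hp] at this
  exact h2 this

theorem SS_split (k : Fin 17) {x : G22} (hx : x ∈ SS ((k : ℕ) + 1)) :
    x ∈ SS (k : ℕ) ∨ ∃ y ∈ SS (k : ℕ), x = el (sw k) * y := by
  let g := el (sw k)
  have hsq : g * g ∈ SS (k : ℕ) := by
    have h := sq_check k
    rw [Bool.and_eq_true] at h
    show el (sw k) * el (sw k) ∈ _
    rw [← el_append, el_eq_of_sameB h.2]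
    exact xw_mem (by simpa using h.1)
  have hgS : g ∈ SY := gen_mem_SS k.2
  induction hx using Subgroup.closure_induction with
  | mem x hx =>
    obtain ⟨i, hi, rfl⟩ := hx
    rcases Nat.lt_succ_iff_lt_or_eq.1 hi with h | h
    · exact Or.inl (gen_mem_SS h)
    · exact Or.inr ⟨1, one_mem _, by rw [mul_one, Fin.ext h]⟩
  | one => exact Or.inl (one_mem _)
  | mul a b _ _ ha hb =>
    rcases ha with ha | ⟨y, hy, rfl⟩ <;> rcases hb with hb | ⟨z, hz, rfl⟩
    · exact Or.inl (mul_mem ha hb)
    · refine Or.inr ⟨g⁻¹ * a * g * z, mul_mem ?_ hz, by show a * (g * z) = g * _; group⟩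
      simpa using SS_normal k (inv_mem hgS) a ha
    · exact Or.inr ⟨y * b, mul_mem hy hb, by group⟩
    · refine Or.inl ?_
      have h1 : g⁻¹ * y * g ∈ SS (k : ℕ) := by simpa using SS_normal k (inv_mem hgS) y hy
      have : g * y * (g * z) = (g * g) * (g⁻¹ * y * g) * z := by group
      rw [show el (sw k) = g from rfl, this]
      exact mul_mem (mul_mem hsq h1) hz
  | inv a _ ha =>
    rcases ha with ha | ⟨y, hy, rfl⟩
    · exact Or.inl (inv_mem ha)
    · refine Or.inr ⟨(g * g)⁻¹ * (g * y⁻¹ * g⁻¹), mul_mem (inv_mem hsq) (SS_normal k hgS _ (inv_mem hy)), ?_⟩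
      show (g * y)⁻¹ = g * _
      group

theorem card_SS : ∀ k ≤ 17, Nat.card ↥(SS k) = 2 ^ k := by
  intro k hk
  induction k with
  | zero => rw [SS_zero, Subgroup.card_bot, pow_zero]
  | succ k ih =>
    haveI := finite_G
    let i : Fin 17 := ⟨k, hk⟩
    let f : Bool × ↥(SS k) → ↥(SS (k + 1)) := fun p =>
      ⟨(if p.1 then el (sw i) else 1) * (p.2 : G22), mul_mem (by
        split
        · exact gen_mem_SS (i := i) (Nat.lt_succ_self k)
        · exact one_mem _) (SS_mono (Nat.le_succ k) p.2.2)⟩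
    have hb : Function.Bijective f := by
      constructor
      · rintro ⟨a, x⟩ ⟨b, y⟩ h
        have h' := congrArg Subtype.val h
        have hne : ∀ x y : ↥(SS k), el (sw i) * (x : G22) ≠ y := fun x y e => gen_not_mem i (by
          rw [eq_mul_inv_of_mul_eq e]; exact mul_mem y.2 (inv_mem x.2))
        cases a <;> cases b <;> simp only [f, if_true, Bool.false_eq_true, if_false, one_mul] at h'
        · rw [Subtype.ext h']
        · exact absurd h'.symm (hne _ _)
        · exact absurd h' (hne _ _)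
        · rw [Subtype.ext (mul_left_cancel h')]
      · intro x
        rcases SS_split i x.2 with h | ⟨y, hy, e⟩
        · exact ⟨(false, ⟨x, h⟩), Subtype.ext (by simp [f])⟩
        · exact ⟨(true, ⟨y, hy⟩), Subtype.ext (by simp [f, e])⟩
    rw [← Nat.card_eq_of_bijective f hb, Nat.card_prod, ih (Nat.le_of_succ_le hk), pow_succ]
    simp [mul_comm]

/-- Conjugate to one of the three representatives. -/
def Good (x : G22) : Prop :=
  swapAut x * x = 1 → ∃ r : Fin 3, IsConj (MulAut.conj x * swapAut) (outer (repW r))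

theorem aut_twist (c x : G22) : MulAut.conj c * (MulAut.conj x * swapAut) * (MulAut.conj c)⁻¹ =
    MulAut.conj (c * x * (swapAut c)⁻¹) * swapAut := by
  have h : ∀ g, swapAut * MulAut.conj g = MulAut.conj (swapAut g) * swapAut := fun g => by
    ext z
    simp only [MulAut.mul_apply, MulAut.conj_apply, map_mul, map_inv]
  rw [← map_inv, mul_assoc, mul_assoc, h, map_inv, ← mul_assoc (MulAut.conj x), ← map_mul, ← mul_assoc,
    ← map_mul]
  congr 2
  rw [mul_assoc]

theorem swap_swap (x : G22) : swapAut (swapAut x) = x := DFunLike.congr_fun swapHom_swapHom x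

theorem Good.twist {x : G22} (h : Good x) (c : G22) : Good (c * x * (swapAut c)⁻¹) := by
  intro hx
  have hx' : swapAut x * x = 1 := by
    rw [map_mul, map_mul, map_inv, swap_swap] at hx
    have e : swapAut x * x = (swapAut c)⁻¹ * (swapAut c * swapAut x * c⁻¹ * (c * x * (swapAut c)⁻¹)) * swapAut c := by
      group
    rw [e, hx, mul_one, inv_mul_cancel]
  obtain ⟨r, hr⟩ := h hx'
  refine ⟨r, (isConj_iff.2 ⟨MulAut.conj c, aut_twist c x⟩).symm.trans hr⟩

theorem yW_mem (path : List ℕ) : el (yW path) ∈ SY := by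
  rw [yW]
  induction path.reverse with
  | nil => rw [List.flatMap_nil, el_nil]; exact one_mem _
  | cons a as ih =>
    rw [List.flatMap_cons, el_append, el_reverse]
    exact mul_mem (inv_mem (gen_mem_SS (i := ⟨a % 17, Nat.mod_lt _ (by norm_num)⟩) (Nat.mod_lt _ (by norm_num)))) ih

/-- All completions of a node are good. -/
def GoodAt (k e : ℕ) : Prop := ∀ l ∈ SS k, Good (el (xw e) * l)

theorem good_zero {e : ℕ} (he : e ∈ layerT.getD 0 []) : GoodAt 0 e := by
  intro l hl
  rw [SS_zero, Subgroup.mem_bot] at hl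
  subst hl
  rw [mul_one]
  intro _
  obtain ⟨p, -, hp⟩ := List.any_eq_true.1 (List.all_eq_true.1 root_check e he)
  simp only [Bool.and_eq_true, Nat.blt_eq] at hp
  refine ⟨⟨p.2.1, hp.1.2⟩, (isConj_iff.2 ⟨MulAut.conj (el p.2.2), ?_⟩).symm⟩
  have ho : outer (repW p.2.1) = MulAut.conj (el ((repW p.2.1).map piA)) * swapAut := by
    ext z
    simp only [outer, MulAut.mul_apply, MulAut.conj_apply, map_mul, map_inv, swap_el]
  rw [show outer (repW ((⟨p.2.1, hp.1.2⟩ : Fin 3) : ℕ)) = outer (repW p.2.1) from rfl, ho, aut_twist, swap_el,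
    ← el_reverse, ← el_append, ← el_append, el_eq_of_sameB hp.2]

theorem child_good (k : Fin 17) {e : ℕ} (he : childB k e = true)
    (hin : ∀ e' ∈ layerT.getD (k : ℕ) [], GoodAt k e')
    (hpass : el (xw e) ∈ SY) : GoodAt k e := by
  simp only [childB, Bool.or_eq_true, Bool.and_eq_true, List.any_eq_true, Bool.not_eq_true',
    List.contains_iff_mem, Nat.blt_eq] at he
  rcases he with (he | he) | ⟨p, -, ⟨⟨⟨hpe, hp0⟩, hl0⟩, hsame⟩⟩
  · exact hin e he
  · intro l hl hx
    exfalso
    obtain ⟨hp, h1, -⟩ := orb_facts k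
    have hh : swapAut (el (xw e)) * el (xw e) ∈ SS (k : ℕ) := by
      have e1 : swapAut (el (xw e)) * el (xw e) =
          swapAut (el (xw e)) * (swapAut l)⁻¹ * (swapAut (el (xw e)))⁻¹ *
            ((swapAut (el (xw e)) * swapAut l) * (el (xw e) * l)) * l⁻¹ := by group
      rw [e1, ← map_mul swapAut (el (xw e)) l, hx, mul_one]
      exact mul_mem (SS_normal k (swap_SS 17 hpass) _ (inv_mem (swap_SS k hl))) (inv_mem hl)
    rw [swap_el, ← el_append] at hh
    have := h1 _ hh
    rw [pRep_el, ptF_val' hp] at this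
    have hc : (orbS k).contains (act ((xw e).map piA ++ xw e) (orbP k)) = true := by simpa using this
    rw [he] at hc
    exact absurd hc (by simp)
  · obtain rfl := Nat.eq_of_beq_eq_true hpe
    intro l hl
    set y := el (yW p.2.2.1) with hy
    have hpy : swapAut y ∈ SY := swap_SS 17 (yW_mem _)
    have e1 : el (xw p.1) = y * el (xw p.2.1) * (swapAut y)⁻¹ * el (xw p.2.2.2) := by
      rw [hy, swap_el, ← el_reverse, ← el_append, ← el_append, ← el_append, el_eq_of_sameB hsame]
    have e2 : el (xw p.1) * l =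
        y * (el (xw p.2.1) * ((swapAut y)⁻¹ * (el (xw p.2.2.2) * l) * swapAut y)) * (swapAut y)⁻¹ := by
      rw [e1]; group
    rw [e2]
    refine Good.twist (hin _ hp0 _ ?_) y
    simpa using SS_normal k (inv_mem hpy) _ (mul_mem (xw_mem hl0) hl)

theorem xw_add {e k : ℕ} (hk : k < 17) (hmod : e % 2 ^ (k + 1) = 0) : xw (e + 2 ^ k) = xw e ++ sw k := by
  have hbit : ∀ j, (e + 2 ^ k).testBit j = (e.testBit j || decide (j = k)) := by
    intro j
    obtain ⟨q, rfl⟩ := Nat.dvd_of_mod_eq_zero hmod
    rw [Nat.two_pow_add_eq_or_of_lt (b := 2 ^ k) (Nat.pow_lt_pow_right one_lt_two (Nat.lt_succ_self k)),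
      Nat.testBit_lor, Nat.testBit_two_pow_mul, Nat.testBit_two_pow]
    by_cases h : k = j <;> simp [h, eq_comm]
  have hlow : ∀ j ≤ k, e.testBit j = false := by
    intro j hj
    obtain ⟨q, rfl⟩ := Nat.dvd_of_mod_eq_zero hmod
    rw [Nat.testBit_two_pow_mul]
    simp [Nat.not_le.2 (Nat.lt_succ_of_le hj)]
  have key : ∀ n ≤ 17, k < n → ((List.range n).reverse.filter fun j => (e + 2 ^ k).testBit j) =
      ((List.range n).reverse.filter fun j => e.testBit j) ++ [k] := by
    intro n
    induction n with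
    | zero => intro _ h; exact absurd h (Nat.not_lt_zero _)
    | succ n ih =>
      intro hn hkn
      rw [List.range_succ, List.reverse_append, List.reverse_singleton, List.singleton_append, List.filter_cons,
        List.filter_cons, hbit n]
      rcases Nat.lt_succ_iff_lt_or_eq.1 hkn with h | h
      · simp only [decide_eq_false (show ¬ n = k by omega), Bool.or_false]
        rw [ih (Nat.le_of_succ_le hn) h]
        split <;> simp
      · subst h
        have h1 : ((List.range k).reverse.filter fun j => (e + 2 ^ k).testBit j) = [] := by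
          rw [List.filter_eq_nil_iff]
          intro j hj
          rw [List.mem_reverse, List.mem_range] at hj
          simp [hbit j, hlow j hj.le, Nat.ne_of_lt hj]
        have h2 : ((List.range k).reverse.filter fun j => e.testBit j) = [] := by
          rw [List.filter_eq_nil_iff]
          intro j hj
          rw [List.mem_reverse, List.mem_range] at hj
          simp [hlow j hj.le]
        simp [h1, h2, hlow k le_rfl]
  rw [xw, key 17 le_rfl hk, List.flatMap_append, List.flatMap_singleton]
  rfl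

theorem good_all : ∀ k ≤ 17, ∀ e ∈ layerT.getD k [], GoodAt k e := by
  intro k hk
  induction k with
  | zero => exact fun e he => good_zero he
  | succ k ih =>
    intro e he l hl
    let i : Fin 17 := ⟨k, hk⟩
    have h := List.all_eq_true.1 (level_check i) e he
    simp only [Bool.and_eq_true, Nat.blt_eq] at h
    obtain ⟨⟨⟨hmod, hlt⟩, h0⟩, h1⟩ := h
    have hmod' : e % 2 ^ (k + 1) = 0 := Nat.eq_of_beq_eq_true hmod
    have hlt2 : e + 2 ^ k < 2 ^ 17 := by
      obtain ⟨q, hq⟩ := Nat.dvd_of_mod_eq_zero hmod'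
      obtain ⟨r, hr⟩ : (2 : ℕ) ^ (k + 1) ∣ 2 ^ 17 := pow_dvd_pow 2 hk
      have h2 : (2 : ℕ) ^ k < 2 ^ (k + 1) := Nat.pow_lt_pow_right one_lt_two (Nat.lt_succ_self k)
      have hqr : q < r := Nat.lt_of_mul_lt_mul_left (a := 2 ^ (k + 1)) (by rw [← hq]; exact hlt.trans_eq hr)
      calc e + 2 ^ k < 2 ^ (k + 1) * q + 2 ^ (k + 1) := by omega
        _ = 2 ^ (k + 1) * (q + 1) := by ring
        _ ≤ 2 ^ (k + 1) * r := Nat.mul_le_mul_left _ hqr
        _ = 2 ^ 17 := hr.symm
    rcases SS_split i hl with h' | ⟨y, hy, rfl⟩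
    · exact child_good i h0 (ih (Nat.le_of_succ_le hk)) (xw_mem hlt) l h'
    · have hx : el (xw (e + 2 ^ k)) = el (xw e) * el (sw k) := by
        rw [xw_add i.2 hmod', el_append]
      rw [show el (sw (i : ℕ)) = el (sw k) from rfl, ← mul_assoc, ← hx]
      exact child_good i h1 (ih (Nat.le_of_succ_le hk)) (xw_mem hlt2) y hy

theorem good_SY {x : G22} (hx : x ∈ SY) : Good x := by
  have h := good_all 17 le_rfl 0 (by rw [top_check]; exact List.mem_cons_self) x hx
  rwa [show xw 0 = [] by decide +kernel, el_nil, one_mul] at h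

end Cfsg.Agent.SporB.FiOutInv
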