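import Cfsg.Agent.SporB.FiOutInv.Base
import Cfsg.Agent.SporB.FiOutInv.SylData

/-! Checks for the Sylow 2-subgroup and the search in it. -/

set_option autoImplicit false
set_option maxRecDepth 100000
set_option Elab.async false

namespace Cfsg.Agent.SporB.FiOutInv

open Cfsg.Agent.CosetCert Cfsg.Agent.SporB.FischerU Cfsg.Agent.SporB.FiPair

/-- A series generator. -/
def sw (k : ℕ) : List ℕ := serL.getD k []

/-- The word of an exponent. -/
def xw (e : ℕ) : List ℕ := ((List.range 17).reverse.filter fun j => e.testBit j).flatMap sw

theorem sw_ok : ∀ i : Fin 17, ((sw i).all fun p => Nat.blt p 3510) = true := by decide +kernel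

/-- One conjugate. -/
noncomputable def conjB (j i : Fin 17) : Bool :=
  Nat.blt ((conjT.getD j []).getD i 0) (2 ^ ((i : ℕ) + 1)) &&
    sameB (sw j ++ sw i ++ (sw j).reverse) (xw ((conjT.getD j []).getD i 0))

theorem conj_check0 : ((List.finRange 17).all fun i : Fin 17 => conjB 0 i) = true := by decide +kernel

theorem conj_check1 : ((List.finRange 17).all fun i : Fin 17 => conjB 1 i) = true := by decide +kernel

theorem conj_check2 : ((List.finRange 17).all fun i : Fin 17 => conjB 2 i) = true := by decide +kernel

theorem conj_check3 : ((List.finRange 17).all fun i : Fin 17 => conjB 3 i) = true := by decide +kernel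

theorem conj_check4 : ((List.finRange 17).all fun i : Fin 17 => conjB 4 i) = true := by decide +kernel

theorem conj_check5 : ((List.finRange 17).all fun i : Fin 17 => conjB 5 i) = true := by decide +kernel

theorem conj_check6 : ((List.finRange 17).all fun i : Fin 17 => conjB 6 i) = true := by decide +kernel

theorem conj_check7 : ((List.finRange 17).all fun i : Fin 17 => conjB 7 i) = true := by decide +kernel

theorem conj_check8 : ((List.finRange 17).all fun i : Fin 17 => conjB 8 i) = true := by decide +kernel

theorem conj_check9 : ((List.finRange 17).all fun i : Fin 17 => conjB 9 i) = true := by decide +kernel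

theorem conj_check10 : ((List.finRange 17).all fun i : Fin 17 => conjB 10 i) = true := by decide +kernel

theorem conj_check11 : ((List.finRange 17).all fun i : Fin 17 => conjB 11 i) = true := by decide +kernel

theorem conj_check12 : ((List.finRange 17).all fun i : Fin 17 => conjB 12 i) = true := by decide +kernel

theorem conj_check13 : ((List.finRange 17).all fun i : Fin 17 => conjB 13 i) = true := by decide +kernel

theorem conj_check14 : ((List.finRange 17).all fun i : Fin 17 => conjB 14 i) = true := by decide +kernel

theorem conj_check15 : ((List.finRange 17).all fun i : Fin 17 => conjB 15 i) = true := by decide +kernel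

theorem conj_check16 : ((List.finRange 17).all fun i : Fin 17 => conjB 16 i) = true := by decide +kernel

theorem conj_checkB : ∀ j i : Fin 17, conjB j i = true
  | 0, i => List.all_eq_true.1 conj_check0 i (List.mem_finRange _)
  | 1, i => List.all_eq_true.1 conj_check1 i (List.mem_finRange _)
  | 2, i => List.all_eq_true.1 conj_check2 i (List.mem_finRange _)
  | 3, i => List.all_eq_true.1 conj_check3 i (List.mem_finRange _)
  | 4, i => List.all_eq_true.1 conj_check4 i (List.mem_finRange _)
  | 5, i => List.all_eq_true.1 conj_check5 i (List.mem_finRange _)
  | 6, i => List.all_eq_true.1 conj_check6 i (List.mem_finRange _)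
  | 7, i => List.all_eq_true.1 conj_check7 i (List.mem_finRange _)
  | 8, i => List.all_eq_true.1 conj_check8 i (List.mem_finRange _)
  | 9, i => List.all_eq_true.1 conj_check9 i (List.mem_finRange _)
  | 10, i => List.all_eq_true.1 conj_check10 i (List.mem_finRange _)
  | 11, i => List.all_eq_true.1 conj_check11 i (List.mem_finRange _)
  | 12, i => List.all_eq_true.1 conj_check12 i (List.mem_finRange _)
  | 13, i => List.all_eq_true.1 conj_check13 i (List.mem_finRange _)
  | 14, i => List.all_eq_true.1 conj_check14 i (List.mem_finRange _)
  | 15, i => List.all_eq_true.1 conj_check15 i (List.mem_finRange _)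
  | 16, i => List.all_eq_true.1 conj_check16 i (List.mem_finRange _)
  | ⟨n + 17, h⟩, _ => absurd h (by omega)

theorem conj_check (j i : Fin 17) : (Nat.blt ((conjT.getD j []).getD i 0) (2 ^ ((i : ℕ) + 1)) &&
    sameB (sw j ++ sw i ++ (sw j).reverse) (xw ((conjT.getD j []).getD i 0))) = true := conj_checkB j i

theorem sq_check : ∀ i : Fin 17,
    (Nat.blt (sqT.getD i 0) (2 ^ (i : ℕ)) && sameB (sw i ++ sw i) (xw (sqT.getD i 0))) = true := by decide +kernel

theorem phi_check : ∀ i : Fin 17,
    (Nat.blt (phiT.getD i 0) (2 ^ ((i : ℕ) + 1)) && sameB ((sw i).map piA) (xw (phiT.getD i 0))) = true := by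
  decide +kernel

/-- The point of an invariant set. -/
def orbP (k : ℕ) : ℕ := (orbT.getD k (0, [])).1

/-- An invariant set. -/
def orbS (k : ℕ) : List ℕ := (orbT.getD k (0, [])).2

theorem orb_check : ∀ k : Fin 17, (Nat.blt (orbP k) 3510 && (orbS k).contains (orbP k) &&
    (orbS k).all (fun x => Nat.blt x 3510) &&
    (List.range (k : ℕ)).all (fun i => (orbS k).all fun x => (orbS k).contains (act (sw i) x)) &&
    !(orbS k).contains (act (sw k) (orbP k))) = true := by decide +kernel

/-- The word of a twisting element. -/
def yW (path : List ℕ) : List ℕ := path.reverse.flatMap fun j => (sw (j % 17)).reverse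

/-- One child of a node of the search. -/
noncomputable def childB (k e : ℕ) : Bool :=
  (layerT.getD k []).contains e ||
    !(orbS k).contains (act ((xw e).map piA ++ xw e) (orbP k)) ||
    (moveT.getD k []).any fun p => Nat.beq p.1 e && (layerT.getD k []).contains p.2.1 &&
      Nat.blt p.2.2.2 (2 ^ k) &&
      sameB (yW p.2.2.1 ++ xw p.2.1 ++ ((yW p.2.2.1).map piA).reverse ++ xw p.2.2.2) (xw e)

/-- A level of the search. -/
noncomputable def levelB (k : ℕ) : Bool :=
  (layerT.getD (k + 1) []).all fun e => Nat.beq (e % 2 ^ (k + 1)) 0 && Nat.blt e (2 ^ 17) &&
    childB k e && childB k (e + 2 ^ k)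

theorem level_check0 : levelB 0 = true := by decide +kernel

theorem level_check1 : levelB 1 = true := by decide +kernel

theorem level_check2 : levelB 2 = true := by decide +kernel

theorem level_check3 : levelB 3 = true := by decide +kernel

theorem level_check4 : levelB 4 = true := by decide +kernel

theorem level_check5 : levelB 5 = true := by decide +kernel

theorem level_check6 : levelB 6 = true := by decide +kernel

theorem level_check7 : levelB 7 = true := by decide +kernel

theorem level_check8 : levelB 8 = true := by decide +kernel

theorem level_check9 : levelB 9 = true := by decide +kernel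

theorem level_check10 : levelB 10 = true := by decide +kernel

theorem level_check11 : levelB 11 = true := by decide +kernel

theorem level_check12 : levelB 12 = true := by decide +kernel

theorem level_check13 : levelB 13 = true := by decide +kernel

theorem level_check14 : levelB 14 = true := by decide +kernel

theorem level_check15 : levelB 15 = true := by decide +kernel

theorem level_check16 : levelB 16 = true := by decide +kernel

theorem level_check : ∀ k : Fin 17, levelB k = true
  | 0 => level_check0
  | 1 => level_check1
  | 2 => level_check2
  | 3 => level_check3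
  | 4 => level_check4
  | 5 => level_check5
  | 6 => level_check6
  | 7 => level_check7
  | 8 => level_check8
  | 9 => level_check9
  | 10 => level_check10
  | 11 => level_check11
  | 12 => level_check12
  | 13 => level_check13
  | 14 => level_check14
  | 15 => level_check15
  | 16 => level_check16
  | ⟨n + 17, h⟩ => absurd h (by omega)

theorem top_check : layerT.getD 17 [] = [0] := by decide +kernel

/-- The correcting word of a kind. -/
def repW (r : ℕ) : List ℕ := ([[], [16], [16, 17]] : List (List ℕ)).getD r []

/-- One root. -/
noncomputable def rootB (e : ℕ) : Bool := rootT.any fun p => Nat.beq p.1 e && Nat.blt p.2.1 3 &&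
    sameB (p.2.2 ++ (repW p.2.1).map piA ++ (p.2.2.map piA).reverse) (xw e)

theorem root_check0 : (((layerT.getD 0 []).take 9).all rootB) = true := by decide +kernel

theorem root_check1 : ((((layerT.getD 0 []).drop 9).take 9).all rootB) = true := by decide +kernel

theorem root_check2 : ((((layerT.getD 0 []).drop 9).drop 9).all rootB) = true := by decide +kernel

theorem root_check : ((layerT.getD 0 []).all fun e => rootT.any fun p => Nat.beq p.1 e && Nat.blt p.2.1 3 &&
    sameB (p.2.2 ++ (repW p.2.1).map piA ++ (p.2.2.map piA).reverse) (xw e)) = true := by
  show (layerT.getD 0 []).all rootB = true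
  rw [← List.take_append_drop 9 (layerT.getD 0 []), List.all_append, root_check0,
    ← List.take_append_drop 9 ((layerT.getD 0 []).drop 9), List.all_append, root_check1, root_check2]
  rfl

end Cfsg.Agent.SporB.FiOutInv
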